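import Mathlib

set_option autoImplicit false

/-!
Baer's trick (a group of class at most two in which squaring is invertible carries an abelian
group structure with the same automorphisms) and the abelian case of the `P × Q` lemma in the
form where `P` merely normalizes `Q`.
-/

namespace Cfsg.Agent.Lib.Helper21

section Baer

variable {Γ : Type*} [Group Γ]

/-- The Baer product `x y [y,x]^h`. -/
def baerMul (h : ℕ) (x y : Γ) : Γ := x * y * (y⁻¹ * x⁻¹ * y * x) ^ h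

theorem baerMul_def (h : ℕ) (x y : Γ) : baerMul h x y = x * y * (y⁻¹ * x⁻¹ * y * x) ^ h := rfl

theorem baerMul_comm (h : ℕ) (hh : ∀ x : Γ, x ^ (2 * h) = x) (x y : Γ) :
    baerMul h x y = baerMul h y x := by
  rw [baerMul_def, baerMul_def]
  have e1 : x⁻¹ * y⁻¹ * x * y = (y⁻¹ * x⁻¹ * y * x)⁻¹ := by group
  have e2 : y * x = x * y * (y⁻¹ * x⁻¹ * y * x) := by group
  have e3 : (y⁻¹ * x⁻¹ * y * x) = (y⁻¹ * x⁻¹ * y * x) ^ h * (y⁻¹ * x⁻¹ * y * x) ^ h := by
    rw [← pow_add, ← two_mul, hh]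
  rw [e1, inv_pow]
  calc x * y * (y⁻¹ * x⁻¹ * y * x) ^ h
      = x * y * ((y⁻¹ * x⁻¹ * y * x) ^ h * (y⁻¹ * x⁻¹ * y * x) ^ h)
          * ((y⁻¹ * x⁻¹ * y * x) ^ h)⁻¹ := by group
    _ = x * y * (y⁻¹ * x⁻¹ * y * x) * ((y⁻¹ * x⁻¹ * y * x) ^ h)⁻¹ := by rw [← e3]
    _ = y * x * ((y⁻¹ * x⁻¹ * y * x) ^ h)⁻¹ := by rw [← e2]

theorem baerMul_assoc (h : ℕ)
    (hc : ∀ x y g : Γ, g * (y⁻¹ * x⁻¹ * y * x) = y⁻¹ * x⁻¹ * y * x * g) (x y z : Γ) :
    baerMul h (baerMul h x y) z = baerMul h x (baerMul h y z) := by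
  have hcp : ∀ x y g : Γ, g * (y⁻¹ * x⁻¹ * y * x) ^ h = (y⁻¹ * x⁻¹ * y * x) ^ h * g := by
    intro x y g
    have h1 : Commute g (y⁻¹ * x⁻¹ * y * x) := hc x y g
    exact (h1.pow_right h).eq
  rw [baerMul_def h x y, baerMul_def h y z, baerMul_def, baerMul_def]
  have hA : ∀ g : Γ, g * (y⁻¹ * x⁻¹ * y * x) ^ h = (y⁻¹ * x⁻¹ * y * x) ^ h * g := hcp x y
  have hD : ∀ g : Γ, g * (z⁻¹ * y⁻¹ * z * y) ^ h = (z⁻¹ * y⁻¹ * z * y) ^ h * g := hcp y z
  generalize hAdef : (y⁻¹ * x⁻¹ * y * x) ^ h = A at hA ⊢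
  generalize hDdef : (z⁻¹ * y⁻¹ * z * y) ^ h = D at hD ⊢
  have hB : (z⁻¹ * (x * y * A)⁻¹ * z * (x * y * A)) ^ h
      = (z⁻¹ * x⁻¹ * z * x) ^ h * D := by
    have e : z⁻¹ * (x * y * A)⁻¹ * z * (x * y * A)
        = (z⁻¹ * x⁻¹ * z * x) * (z⁻¹ * y⁻¹ * z * y) := by
      calc z⁻¹ * (x * y * A)⁻¹ * z * (x * y * A)
          = z⁻¹ * A⁻¹ * ((x * y)⁻¹ * z * (x * y) * A) := by group
        _ = z⁻¹ * A⁻¹ * (A * ((x * y)⁻¹ * z * (x * y))) := by rw [hA]
        _ = z⁻¹ * y⁻¹ * z * ((z⁻¹ * x⁻¹ * z * x) * y) := by group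
        _ = z⁻¹ * y⁻¹ * z * (y * (z⁻¹ * x⁻¹ * z * x)) := by rw [hc x z y]
        _ = (z⁻¹ * y⁻¹ * z * y) * (z⁻¹ * x⁻¹ * z * x) := by group
        _ = (z⁻¹ * x⁻¹ * z * x) * (z⁻¹ * y⁻¹ * z * y) := hc x z _
    have hcm : Commute (z⁻¹ * x⁻¹ * z * x) (z⁻¹ * y⁻¹ * z * y) := hc y z _
    rw [e, hcm.mul_pow, hDdef]
  have hE : ((y * z * D)⁻¹ * x⁻¹ * (y * z * D) * x) ^ h
      = A * (z⁻¹ * x⁻¹ * z * x) ^ h := by
    have e : (y * z * D)⁻¹ * x⁻¹ * (y * z * D) * x
        = (y⁻¹ * x⁻¹ * y * x) * (z⁻¹ * x⁻¹ * z * x) := by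
      calc (y * z * D)⁻¹ * x⁻¹ * (y * z * D) * x
          = D⁻¹ * ((y * z)⁻¹ * x⁻¹ * (y * z) * D) * x := by group
        _ = D⁻¹ * (D * ((y * z)⁻¹ * x⁻¹ * (y * z))) * x := by rw [hD]
        _ = z⁻¹ * (y⁻¹ * x⁻¹ * y * x) * (x⁻¹ * z * x) := by group
        _ = (y⁻¹ * x⁻¹ * y * x) * z⁻¹ * (x⁻¹ * z * x) := by rw [hc x y z⁻¹]
        _ = (y⁻¹ * x⁻¹ * y * x) * (z⁻¹ * x⁻¹ * z * x) := by group
    have hcm : Commute (y⁻¹ * x⁻¹ * y * x) (z⁻¹ * x⁻¹ * z * x) := hc x z _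
    rw [e, hcm.mul_pow, hAdef]
  rw [hB, hE]
  have hC : ∀ g : Γ, g * (z⁻¹ * x⁻¹ * z * x) ^ h = (z⁻¹ * x⁻¹ * z * x) ^ h * g := hcp x z
  generalize (z⁻¹ * x⁻¹ * z * x) ^ h = C at hC ⊢
  calc x * y * A * z * (C * D) = x * y * (A * z) * (C * D) := by group
    _ = x * y * (z * A) * (C * D) := by rw [hA z]
    _ = x * y * z * ((A * C) * D) := by group
    _ = x * y * z * (D * (A * C)) := by rw [hD (A * C)]
    _ = x * (y * z * D) * (A * C) := by group

theorem baerMul_one (h : ℕ) (x : Γ) : baerMul h x 1 = x := by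
  rw [baerMul_def]; simp

theorem baerMul_one_left (h : ℕ) (x : Γ) : baerMul h 1 x = x := by
  rw [baerMul_def]; simp

theorem baerMul_inv_left (h : ℕ) (x : Γ) : baerMul h x⁻¹ x = 1 := by
  rw [baerMul_def]; simp

theorem map_baerMul {Γ' : Type*} [Group Γ'] (f : Γ →* Γ') (h : ℕ) (x y : Γ) :
    f (baerMul h x y) = baerMul h (f x) (f y) := by
  rw [baerMul_def, baerMul_def]
  simp only [map_mul, map_inv, map_pow]

/-- Baer's group structure on a group of class at most two. -/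
@[reducible] def baerGroup (Γ : Type*) [Group Γ] (h : ℕ)
    (hc : ∀ x y g : Γ, g * (y⁻¹ * x⁻¹ * y * x) = y⁻¹ * x⁻¹ * y * x * g) : Group Γ :=
  @Group.ofLeftAxioms Γ ⟨baerMul h⟩ ⟨fun x => x⁻¹⟩ ⟨1⟩ (baerMul_assoc h hc) (baerMul_one_left h)
    (baerMul_inv_left h)

/-- Baer's abelian group structure on a group of class at most two with a halving exponent. -/
@[reducible] def baerCommGroup (Γ : Type*) [Group Γ] (h : ℕ)
    (hc : ∀ x y g : Γ, g * (y⁻¹ * x⁻¹ * y * x) = y⁻¹ * x⁻¹ * y * x * g)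
    (hh : ∀ x : Γ, x ^ (2 * h) = x) : CommGroup Γ :=
  { baerGroup Γ h hc with mul_comm := baerMul_comm h hh }

theorem baerCommGroup_mul (h : ℕ)
    (hc : ∀ x y g : Γ, g * (y⁻¹ * x⁻¹ * y * x) = y⁻¹ * x⁻¹ * y * x * g)
    (hh : ∀ x : Γ, x ^ (2 * h) = x) (x y : Γ) :
    @HMul.hMul Γ Γ Γ (@instHMul Γ (baerCommGroup Γ h hc hh).toMul) x y = baerMul h x y := rfl

theorem baerCommGroup_one (h : ℕ)
    (hc : ∀ x y g : Γ, g * (y⁻¹ * x⁻¹ * y * x) = y⁻¹ * x⁻¹ * y * x * g)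
    (hh : ∀ x : Γ, x ^ (2 * h) = x) :
    @OfNat.ofNat Γ 1 (@One.toOfNat1 Γ (baerCommGroup Γ h hc hh).toOne) = (1 : Γ) := rfl

end Baer

section AbelianPQ

open scoped Pointwise

/-- The abelian case of the `P × Q` lemma when `P` only normalizes `Q`: a finite abelian `p`-group
`V` acted on (through `act`, multiplicative on the subgroup `B`) by a `p`-group `P` and a
`p'`-group `Q` normalized by `P`; if every `P`-fixed point is `Q`-fixed then `Q` acts trivially. -/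
theorem abelian_PQ {X V : Type*} [Group X] [Finite X] [CommGroup V] [Finite V] {p : ℕ}
    [Fact p.Prime] {n : ℕ} (hV : Nat.card V = p ^ n) (act : X → V → V)
    (B P Q : Subgroup X) (hPB : P ≤ B) (hQB : Q ≤ B)
    (h1 : ∀ v, act 1 v = v)
    (hmul : ∀ g ∈ B, ∀ g' ∈ B, ∀ v, act (g * g') v = act g (act g' v))
    (hhom : ∀ g ∈ B, ∀ v w, act g (v * w) = act g v * act g w)
    (hP : IsPGroup p P) (hQ : (Nat.card Q).Coprime p)
    (hPQ : P ≤ Subgroup.normalizer (Q : Set X))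
    (hC : ∀ v, (∀ a ∈ P, act a v = v) → ∀ q ∈ Q, act q v = v) :
    ∀ q ∈ Q, ∀ v, act q v = v := by
  classical
  by_contra hcon
  push Not at hcon
  obtain ⟨q₀, hq₀, v₀, hv₀⟩ := hcon
  haveI : Fintype Q := Fintype.ofFinite Q
  have hVp : IsPGroup p V := IsPGroup.of_card hV
  have hone : ∀ g ∈ B, act g 1 = 1 := by
    intro g hg
    have h2 := hhom g hg 1 1
    rw [mul_one] at h2
    exact mul_eq_left.mp h2.symm
  let N : V →* V := MonoidHom.mk' (fun v => ∏ q : Q, act (q : X) v) (by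
    intro v w
    show (∏ q : Q, act (q : X) (v * w)) = (∏ q : Q, act (q : X) v) * ∏ q : Q, act (q : X) w
    rw [← Finset.prod_mul_distrib]
    exact Finset.prod_congr rfl (fun q _ => hhom q (hQB q.2) v w))
  have hN : ∀ v, N v = ∏ q : Q, act (q : X) v := fun v => rfl
  have hNQ : ∀ q₁ ∈ Q, ∀ v, N (act q₁ v) = N v := by
    intro q₁ hq₁ v
    rw [hN, hN]
    rw [← Equiv.prod_comp (Equiv.mulRight (⟨q₁, hq₁⟩ : Q)) (fun q : Q => act (q : X) v)]
    refine Finset.prod_congr rfl (fun q _ => ?_)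
    simp only [Equiv.coe_mulRight, Subgroup.coe_mul]
    exact (hmul q (hQB q.2) q₁ (hQB hq₁) v).symm
  have hNP : ∀ a ∈ P, ∀ v, N (act a v) = act a (N v) := by
    intro a ha v
    have haB := hPB ha
    have hconj : ∀ q : Q, a⁻¹ * (q : X) * a ∈ Q := by
      intro q
      have h2 := (Subgroup.mem_normalizer_iff.mp (hPQ (P.inv_mem ha))) q
      simpa using h2.mp q.2
    let e : Q → Q := fun q => ⟨a⁻¹ * (q : X) * a, hconj q⟩
    have he : Function.Bijective e := by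
      rw [← Finite.injective_iff_bijective]
      intro q q' h
      have h3 := congrArg Subtype.val h
      simp only [e] at h3
      exact Subtype.ext (mul_left_cancel (mul_right_cancel h3))
    let actHom : V →* V := MonoidHom.mk' (act a) (hhom a haB)
    have h2 : act a (N v) = ∏ q : Q, act a (act (q : X) v) := by
      rw [hN]
      exact map_prod actHom _ _
    rw [h2, hN, ← he.prod_comp (fun q : Q => act a (act (q : X) v))]
    refine Finset.prod_congr rfl (fun q _ => ?_)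
    rw [← hmul _ (hQB q.2) _ haB, ← hmul _ haB _ (hQB (e q).2)]
    congr 1
    simp only [e]
    group
  have hW : IsPGroup p N.ker := hVp.to_subgroup N.ker
  have hWne : N.ker ≠ ⊥ := by
    intro hbot
    have hmem : v₀⁻¹ * act q₀ v₀ ∈ N.ker := by
      rw [MonoidHom.mem_ker, map_mul, map_inv, hNQ q₀ hq₀, inv_mul_cancel]
    rw [hbot, Subgroup.mem_bot, inv_mul_eq_one] at hmem
    exact hv₀ hmem.symm
  have hpW : p ∣ Nat.card N.ker := by
    rcases hW.card_eq_or_dvd with h2 | h2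
    · exact absurd (Subgroup.card_eq_one.mp h2) hWne
    · exact h2
  letI actPW : MulAction P N.ker :=
    { smul := fun a w => ⟨act (a : X) (w : V), by
        rw [MonoidHom.mem_ker, hNP a a.2, MonoidHom.mem_ker.mp w.2, hone a (hPB a.2)]⟩
      one_smul := fun w => Subtype.ext (h1 w)
      mul_smul := fun a b w => Subtype.ext (hmul a (hPB a.2) b (hPB b.2) w) }
  have hsmul : ∀ (a : P) (w : N.ker), ((a • w : N.ker) : V) = act (a : X) (w : V) :=
    fun a w => rfl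
  have hfix1 : (1 : N.ker) ∈ MulAction.fixedPoints P N.ker := by
    intro a
    apply Subtype.ext
    rw [hsmul]
    exact hone a (hPB a.2)
  obtain ⟨b, hb, hb1⟩ := hP.exists_fixed_point_of_prime_dvd_card_of_fixed_point N.ker hpW hfix1
  have hbP : ∀ a ∈ P, act a (b : V) = b := by
    intro a ha
    have h2 := hb ⟨a, ha⟩
    have h3 := congrArg Subtype.val h2
    rw [hsmul] at h3
    exact h3
  have hbQ := hC b hbP
  have hNb : N (b : V) = (b : V) ^ Nat.card Q := by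
    rw [hN, Finset.prod_congr rfl (fun (q : Q) _ => hbQ (q : X) q.2), Finset.prod_const, Finset.card_univ,
      Nat.card_eq_fintype_card]
  have hb2 : (b : V) ^ Nat.card Q = 1 := by
    rw [← hNb]
    exact MonoidHom.mem_ker.mp b.2
  obtain ⟨k, hk⟩ := hVp (b : V)
  have hd1 : orderOf (b : V) ∣ Nat.card Q := orderOf_dvd_of_pow_eq_one hb2
  have hd2 : orderOf (b : V) ∣ p ^ k := orderOf_dvd_of_pow_eq_one hk
  have hd3 : orderOf (b : V) ∣ Nat.gcd (Nat.card Q) (p ^ k) := Nat.dvd_gcd hd1 hd2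
  rw [Nat.Coprime.gcd_eq_one (Nat.Coprime.pow_right k hQ), Nat.dvd_one, orderOf_eq_one_iff] at hd3
  exact hb1 (Subtype.ext hd3.symm)

end AbelianPQ

section ClassTwo

/-- The `P × Q` lemma with `P` normalizing `Q`, for a `p`-group `G` of class at most two and
exponent `p`, `p` odd. -/
theorem class_two_PQ {X : Type*} [Group X] [Finite X] {p : ℕ} [Fact p.Prime] (hp : p ≠ 2)
    (P Q G : Subgroup X) (hP : IsPGroup p P) (hQ : (Nat.card Q).Coprime p)
    (hPQ : P ≤ Subgroup.normalizer (Q : Set X)) (hG : IsPGroup p G)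
    (hPG : P ≤ Subgroup.normalizer (G : Set X)) (hQG : Q ≤ Subgroup.normalizer (G : Set X))
    (hcl : ∀ x ∈ G, ∀ y ∈ G, ∀ g ∈ G, g * (y⁻¹ * x⁻¹ * y * x) = y⁻¹ * x⁻¹ * y * x * g)
    (hexp : ∀ x ∈ G, x ^ p = 1)
    (hC : G ⊓ Subgroup.centralizer (P : Set X) ≤ Subgroup.centralizer (Q : Set X)) :
    Q ≤ Subgroup.centralizer (G : Set X) := by
  classical
  have hpp : p.Prime := Fact.out
  obtain ⟨m, hm⟩ : ∃ m, p = 2 * m + 1 := by
    rcases hpp.eq_two_or_odd with h | h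
    · exact absurd h hp
    · exact ⟨p / 2, by omega⟩
  have hh : ∀ x : G, x ^ (2 * (m + 1)) = x := by
    intro x
    have e : 2 * (m + 1) = p + 1 := by omega
    rw [e, pow_succ]
    have h2 : x ^ p = 1 := Subtype.ext (by simpa using hexp x x.2)
    rw [h2, one_mul]
  have hc : ∀ x y g : G, g * (y⁻¹ * x⁻¹ * y * x) = y⁻¹ * x⁻¹ * y * x * g := by
    intro x y g
    apply Subtype.ext
    simpa using hcl x x.2 y y.2 g g.2
  obtain ⟨k, hk⟩ := IsPGroup.iff_card.mp hG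
  have hnm : ∀ g ∈ Subgroup.normalizer (G : Set X), ∀ v : G, g * (v : X) * g⁻¹ ∈ G :=
    fun g hg v => (Subgroup.mem_normalizer_iff.mp hg v).mp v.2
  let act : X → G → G := fun g v =>
    if hg : g ∈ Subgroup.normalizer (G : Set X) then ⟨g * (v : X) * g⁻¹, hnm g hg v⟩ else v
  have hact : ∀ g (_ : g ∈ Subgroup.normalizer (G : Set X)) (v : G),
      ((act g v : G) : X) = g * v * g⁻¹ := by
    intro g hg v
    simp only [act]
    rw [dif_pos hg]
  have key := @abelian_PQ X G _ _ (baerCommGroup G (m + 1) hc hh) _ p _ k hk act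
    (Subgroup.normalizer (G : Set X)) P Q hPG hQG ?_ ?_ ?_ hP hQ hPQ ?_
  · intro q hq
    rw [Subgroup.mem_centralizer_iff]
    intro v hv
    have h2 := key q hq ⟨v, hv⟩
    have h3 := congrArg Subtype.val h2
    rw [hact q (hQG hq)] at h3
    exact (mul_inv_eq_iff_eq_mul.mp h3).symm
  · intro v
    apply Subtype.ext
    rw [hact 1 (Subgroup.one_mem _)]
    simp
  · intro g hg g' hg' v
    apply Subtype.ext
    rw [hact _ (Subgroup.mul_mem _ hg hg'), hact g hg, hact g' hg']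
    group
  · intro g hg v w
    let cj : G →* G := MonoidHom.mk' (fun v => ⟨g * (v : X) * g⁻¹, hnm g hg v⟩) (by
      intro a b
      apply Subtype.ext
      simp)
    have hcj : ∀ v, act g v = cj v := by
      intro v
      apply Subtype.ext
      rw [hact g hg]
      rfl
    show act g (baerMul (m + 1) v w) = baerMul (m + 1) (act g v) (act g w)
    rw [hcj, hcj, hcj, map_baerMul]
  · intro v hv q hq
    have hvC : (v : X) ∈ G ⊓ Subgroup.centralizer (P : Set X) := by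
      refine Subgroup.mem_inf.mpr ⟨v.2, ?_⟩
      rw [Subgroup.mem_centralizer_iff]
      intro a ha
      have h2 := congrArg Subtype.val (hv a ha)
      rw [hact a (hPG ha)] at h2
      exact mul_inv_eq_iff_eq_mul.mp h2
    have h3 := hC hvC
    rw [Subgroup.mem_centralizer_iff] at h3
    apply Subtype.ext
    rw [hact q (hQG hq), mul_inv_eq_iff_eq_mul]
    exact h3 q hq

end ClassTwo

end Cfsg.Agent.Lib.Helper21
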