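import Mathlib

namespace Cfsg.Agent.Lib.Helper21

open Module

/-- Field automorphisms of a domain are linearly independent as functions (Dedekind). -/
theorem li_ringEquiv (F : Type*) [Field F] :
    LinearIndependent F (fun σ : F ≃+* F => ((σ : F →+* F) : F → F)) := by
  have h := linearIndependent_monoidHom F F
  have hinj : Function.Injective (fun σ : F ≃+* F => ((σ : F →+* F) : F →* F)) := by
    intro σ τ hst
    ext x
    have := congrArg (fun f : F →* F => f x) hst
    simpa using this
  exact h.comp _ hinj

/-- The additive endomorphisms of a finite field have the field automorphisms as a basis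
(for the action of the field on values). -/
theorem exists_aut_basis (F : Type*) [Field F] [Finite F] (p : ℕ) [Fact p.Prime] [CharP F p] :
    ∃ b : Basis (F ≃+* F) F (F →+ F), ∀ (σ : F ≃+* F) (x : F), b σ x = σ x := by
  classical
  letI : Fintype F := Fintype.ofFinite F
  letI := ZMod.algebra F p
  haveI : Finite (F ≃+* F) :=
    Finite.of_injective (fun σ : F ≃+* F => (σ : F → F)) (fun σ τ h => RingEquiv.ext (congrFun h))
  letI : Fintype (F ≃+* F) := Fintype.ofFinite _
  let v : (F ≃+* F) → (F →+ F) := fun σ => (σ : F ≃+ F).toAddMonoidHom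
  let φ : (F →+ F) →ₗ[F] (F → F) :=
    { toFun := fun f => ⇑f, map_add' := fun _ _ => rfl, map_smul' := fun _ _ => rfl }
  have hv : LinearIndependent F v := by
    apply LinearIndependent.of_comp φ
    exact li_ringEquiv F
  -- dimension of the additive maps
  let e : (F →+ F) ≃ₗ[F] (F →ₗ[ZMod p] F) :=
    { toFun := fun f => AddMonoidHom.toZModLinearMap p f
      invFun := fun g => g.toAddMonoidHom
      left_inv := fun f => by ext x; rfl
      right_inv := fun g => by ext x; rfl
      map_add' := fun f g => by ext x; rfl
      map_smul' := fun c f => by ext x; rfl }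
  have hfin : finrank F (F →+ F) = finrank (ZMod p) F := by
    rw [e.finrank_eq, Module.finrank_linearMap (ZMod p) F F F, Module.finrank_self, mul_one]
  have hcard1 : finrank (ZMod p) F ≤ Fintype.card (F ≃+* F) := by
    rw [← IsGalois.card_aut_eq_finrank (ZMod p) F, Nat.card_eq_fintype_card]
    exact Fintype.card_le_of_injective (fun σ : F ≃ₐ[ZMod p] F => σ.toRingEquiv)
      AlgEquiv.coe_ringEquiv_injective
  haveI : Module.Finite F (F →+ F) := Module.Finite.equiv e.symm
  have hcard2 : Fintype.card (F ≃+* F) ≤ finrank F (F →+ F) := hv.fintype_card_le_finrank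
  have hcard : Fintype.card (F ≃+* F) = finrank F (F →+ F) := by omega
  haveI : Nonempty (F ≃+* F) := ⟨RingEquiv.refl F⟩
  refine ⟨basisOfLinearIndependentOfCardEqFinrank hv hcard, fun σ x => ?_⟩
  rw [coe_basisOfLinearIndependentOfCardEqFinrank]
  rfl

end Cfsg.Agent.Lib.Helper21
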