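import Mathlib

set_option autoImplicit false

namespace Cfsg.Agent.Lib.Helper21

section Mat2

variable {F : Type*} [Field F]

/-- Cayley–Hamilton for `2 × 2` matrices. -/
theorem mat2_cayley (a : Matrix (Fin 2) (Fin 2) F) :
    a * a = a.trace • a - a.det • (1 : Matrix (Fin 2) (Fin 2) F) := by
  ext i j
  fin_cases i <;> fin_cases j <;>
    simp [Matrix.mul_apply, Fin.sum_univ_two, Matrix.trace_fin_two, Matrix.det_fin_two] <;> ring

theorem mat2_det_add (a : Matrix (Fin 2) (Fin 2) F) (α β : F) :
    (α • (1 : Matrix (Fin 2) (Fin 2) F) + β • a).det =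
      α ^ 2 + α * β * a.trace + β ^ 2 * a.det := by
  simp [Matrix.det_fin_two, Matrix.trace_fin_two]
  ring

theorem mat2_trace_add (a : Matrix (Fin 2) (Fin 2) F) (α β : F) :
    (α • (1 : Matrix (Fin 2) (Fin 2) F) + β • a).trace = 2 * α + β * a.trace := by
  simp [Matrix.trace_fin_two]
  ring

theorem mat2_eq_of_entries (a b : Matrix (Fin 2) (Fin 2) F) (α β : F)
    (h00 : b 0 0 = α + β * a 0 0) (h01 : b 0 1 = β * a 0 1) (h10 : b 1 0 = β * a 1 0)
    (h11 : b 1 1 = α + β * a 1 1) : b = α • (1 : Matrix (Fin 2) (Fin 2) F) + β • a := by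
  ext i j
  fin_cases i <;> fin_cases j
  · simpa using h00
  · simpa using h01
  · simpa using h10
  · simpa using h11

/-- A matrix commuting with a non-scalar `2 × 2` matrix `a` is a polynomial in `a`. -/
theorem mat2_comm_form (a b : Matrix (Fin 2) (Fin 2) F)
    (hns : ∀ c : F, a ≠ c • (1 : Matrix (Fin 2) (Fin 2) F)) (h : a * b = b * a) :
    ∃ α β : F, b = α • (1 : Matrix (Fin 2) (Fin 2) F) + β • a := by
  have e00 := congrFun (congrFun h 0) 0
  have e01 := congrFun (congrFun h 0) 1
  have e10 := congrFun (congrFun h 1) 0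
  simp only [Matrix.mul_apply, Fin.sum_univ_two] at e00 e01 e10
  by_cases h01 : a 0 1 = 0
  · by_cases h10 : a 1 0 = 0
    · have hd : a 1 1 - a 0 0 ≠ 0 := by
        intro hd
        apply hns (a 0 0)
        have := mat2_eq_of_entries (1 : Matrix (Fin 2) (Fin 2) F) a (a 0 0) 0 (by simp) (by simp [h01])
          (by simp [h10]) (by simp; linear_combination hd)
        rw [this]; simp
      have hb01 : b 0 1 = 0 := by
        rw [h01] at e01
        have : b 0 1 * (a 1 1 - a 0 0) = 0 := by linear_combination -e01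
        rcases mul_eq_zero.mp this with h1 | h1
        · exact h1
        · exact absurd h1 hd
      have hb10 : b 1 0 = 0 := by
        rw [h10] at e10
        have : b 1 0 * (a 1 1 - a 0 0) = 0 := by linear_combination e10
        rcases mul_eq_zero.mp this with h1 | h1
        · exact h1
        · exact absurd h1 hd
      obtain ⟨β, hβ⟩ : ∃ β : F, β * (a 1 1 - a 0 0) = b 1 1 - b 0 0 :=
        ⟨(b 1 1 - b 0 0) / (a 1 1 - a 0 0), div_mul_cancel₀ _ hd⟩
      refine ⟨b 0 0 - β * a 0 0, β, mat2_eq_of_entries a b _ _ ?_ ?_ ?_ ?_⟩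
      · ring
      · rw [hb01, h01, mul_zero]
      · rw [hb10, h10, mul_zero]
      · linear_combination -hβ
    · obtain ⟨β, hβ⟩ : ∃ β : F, β * a 1 0 = b 1 0 := ⟨b 1 0 / a 1 0, div_mul_cancel₀ _ h10⟩
      have hb01 : b 0 1 = 0 := by
        rw [h01] at e00
        have : b 0 1 * a 1 0 = 0 := by linear_combination -e00
        rcases mul_eq_zero.mp this with h1 | h1
        · exact h1
        · exact absurd h1 h10
      refine ⟨b 0 0 - β * a 0 0, β, mat2_eq_of_entries a b _ _ ?_ ?_ ?_ ?_⟩
      · ring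
      · rw [hb01, h01, mul_zero]
      · linear_combination -hβ
      · apply mul_right_cancel₀ h10
        linear_combination (-1 : F) * e10 + (a 0 0 - a 1 1) * hβ
  · obtain ⟨β, hβ⟩ : ∃ β : F, β * a 0 1 = b 0 1 := ⟨b 0 1 / a 0 1, div_mul_cancel₀ _ h01⟩
    refine ⟨b 0 0 - β * a 0 0, β, mat2_eq_of_entries a b _ _ ?_ ?_ ?_ ?_⟩
    · ring
    · linear_combination -hβ
    · apply mul_right_cancel₀ h01
      linear_combination e00 + (-a 1 0) * hβ
    · apply mul_right_cancel₀ h01
      linear_combination e01 + (a 0 0 - a 1 1) * hβ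

/-- Two polynomials in `a` commute. -/
theorem mat2_poly_comm (a : Matrix (Fin 2) (Fin 2) F) (α β γ δ : F) :
    (α • (1 : Matrix (Fin 2) (Fin 2) F) + β • a) * (γ • (1 : Matrix (Fin 2) (Fin 2) F) + δ • a) =
      (γ • (1 : Matrix (Fin 2) (Fin 2) F) + δ • a) * (α • (1 : Matrix (Fin 2) (Fin 2) F) + β • a) := by
  simp only [mul_add, add_mul, Matrix.smul_mul, Matrix.mul_smul, Matrix.one_mul, Matrix.mul_one,
    smul_smul]
  rw [mul_comm γ α, mul_comm δ α, mul_comm γ β, mul_comm δ β]
  abel

/-- A conjugate of a semisimple `a` (trace `t`, `t² ≠ 4`, determinant one) lying in `F[a]`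
is `a` or its inverse. -/
theorem mat2_conj_in_poly (a : Matrix (Fin 2) (Fin 2) F) (h2 : (2 : F) ≠ 0) (hdet : a.det = 1)
    (ht : a.trace ^ 2 ≠ 4) (α β : F)
    (hdet' : (α • (1 : Matrix (Fin 2) (Fin 2) F) + β • a).det = 1)
    (htr' : (α • (1 : Matrix (Fin 2) (Fin 2) F) + β • a).trace = a.trace) :
    α • (1 : Matrix (Fin 2) (Fin 2) F) + β • a = a ∨
      (α • (1 : Matrix (Fin 2) (Fin 2) F) + β • a) * a = 1 := by
  rw [mat2_det_add, hdet] at hdet'
  rw [mat2_trace_add] at htr'
  have hβ : (1 - β ^ 2) * (a.trace ^ 2 - 4) = 0 := by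
    linear_combination (4 : F) * hdet' - (2 * α + β * a.trace + a.trace) * htr'
  have hβ2 : β ^ 2 = 1 := by
    rcases mul_eq_zero.mp hβ with h1 | h1
    · linear_combination -h1
    · exact absurd (by linear_combination h1) ht
  have hβ' : (β - 1) * (β + 1) = 0 := by linear_combination hβ2
  rcases mul_eq_zero.mp hβ' with h1 | h1
  · left
    have hβ1 : β = 1 := by linear_combination h1
    have hα : α = 0 := by
      have : 2 * α = 0 := by rw [hβ1] at htr'; linear_combination htr'
      rcases mul_eq_zero.mp this with h3 | h3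
      · exact absurd h3 h2
      · exact h3
    rw [hβ1, hα]; simp
  · right
    have hβ1 : β = -1 := by linear_combination h1
    have hα : α = a.trace := by
      have : 2 * (α - a.trace) = 0 := by rw [hβ1] at htr'; linear_combination htr'
      rcases mul_eq_zero.mp this with h3 | h3
      · exact absurd h3 h2
      · linear_combination h3
    rw [hβ1, hα, add_mul, Matrix.smul_mul, Matrix.smul_mul, Matrix.one_mul, mat2_cayley, hdet]
    simp

/-- A `2 × 2` matrix of determinant one with trace `±2` satisfies `a ^ p = ± 1` in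
characteristic `p`. -/
theorem mat2_pow_char_of_trace (p : ℕ) [Fact p.Prime] [CharP F p]
    (a : Matrix (Fin 2) (Fin 2) F) (hdet : a.det = 1) (ht : a.trace ^ 2 = 4) :
    a ^ p = 1 ∨ a ^ p = -1 := by
  have hpp : p.Prime := Fact.out
  have h2 : (a.trace - 2) * (a.trace + 2) = 0 := by linear_combination ht
  rcases mul_eq_zero.mp h2 with h | h
  · left
    have htr : a.trace = 2 := by linear_combination h
    have hN : (a - 1) * (a - 1) = 0 := by
      rw [sub_mul, mul_sub, mul_sub, Matrix.mul_one, Matrix.one_mul, Matrix.one_mul, mat2_cayley,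
        hdet, htr]
      simp only [one_smul, two_smul]
      abel
    have hNp : (a - 1) ^ p = 0 := by
      obtain ⟨k, hk⟩ : ∃ k, p = k + 2 := ⟨p - 2, by have := hpp.two_le; omega⟩
      rw [hk, pow_add, pow_two, hN, mul_zero]
    have h3 := sub_pow_char_of_commute (Commute.one_right a) (p := p)
    rw [hNp, one_pow] at h3
    exact (sub_eq_zero.mp h3.symm)
  · right
    have htr : a.trace = -2 := by linear_combination h
    have hN : (a + 1) * (a + 1) = 0 := by
      rw [add_mul, mul_add, mul_add, Matrix.mul_one, Matrix.one_mul, Matrix.one_mul, mat2_cayley,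
        hdet, htr]
      simp only [one_smul, neg_smul, two_smul]
      abel
    have hNp : (a + 1) ^ p = 0 := by
      obtain ⟨k, hk⟩ : ∃ k, p = k + 2 := ⟨p - 2, by have := hpp.two_le; omega⟩
      rw [hk, pow_add, pow_two, hN, mul_zero]
    have h3 := add_pow_char_of_commute (Commute.one_right a) (p := p)
    rw [hNp, one_pow] at h3
    exact eq_neg_of_add_eq_zero_left h3.symm

/-- An element of order `p` in characteristic `p` has trace two (for `2 × 2` matrices). -/
theorem mat2_trace_of_pow_char (p : ℕ) [Fact p.Prime] [CharP F p]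
    (w : Matrix (Fin 2) (Fin 2) F) (hw : w ^ p = 1) : w.trace = 2 := by
  have hpp : p.Prime := Fact.out
  have h3 := sub_pow_char_of_commute (Commute.one_right w) (p := p)
  rw [hw, one_pow, sub_self] at h3
  -- N = w - 1 is nilpotent
  obtain ⟨N, hN⟩ : ∃ N : Matrix (Fin 2) (Fin 2) F, N = w - 1 := ⟨_, rfl⟩
  rw [← hN] at h3
  have hdN : N.det = 0 := by
    have : N.det ^ p = 0 := by rw [← Matrix.det_pow, h3]; simp
    exact pow_eq_zero_iff (hpp.ne_zero) |>.mp this
  have hsq : N * N = N.trace • N := by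
    rw [mat2_cayley, hdN]; simp
  have hpow : ∀ k : ℕ, N ^ (k + 1) = N.trace ^ k • N := by
    intro k
    induction k with
    | zero => simp
    | succ k ih =>
      rw [pow_succ, ih, Matrix.smul_mul, hsq, smul_smul, pow_succ]
  have htN : N.trace = 0 := by
    obtain ⟨k, hk⟩ : ∃ k, p = k + 1 := ⟨p - 1, by have := hpp.pos; omega⟩
    have hk0 : k ≠ 0 := by
      rintro rfl
      exact hpp.one_lt.ne' hk
    rw [hk, hpow] at h3
    rcases smul_eq_zero.mp h3 with h4 | h4
    · exact (pow_eq_zero_iff hk0).mp h4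
    · rw [h4]; simp
  have : N.trace = w.trace - 2 := by
    rw [hN, Matrix.trace_sub, Matrix.trace_one]; simp
  rw [this] at htN
  linear_combination htN

theorem mat2_sub_one_sq (a : Matrix (Fin 2) (Fin 2) F) (hdet : a.det = 1) (htr : a.trace = 2) :
    (a - 1) * (a - 1) = 0 := by
  rw [sub_mul, mul_sub, mul_sub, Matrix.mul_one, Matrix.one_mul, Matrix.one_mul, mat2_cayley,
    hdet, htr]
  simp only [one_smul, two_smul]
  abel

/-- A nonzero `2 × 2` matrix squaring to zero has a nonzero vector in its kernel. -/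
theorem mat2_exists_ker (N : Matrix (Fin 2) (Fin 2) F) (hN : N ≠ 0) (hsq : N * N = 0) :
    ∃ v : Fin 2 → F, v ≠ 0 ∧ N.mulVec v = 0 := by
  obtain ⟨i, j, hij⟩ : ∃ i j, N i j ≠ 0 := by
    by_contra h
    push Not at h
    apply hN
    ext i j
    exact h i j
  refine ⟨N.mulVec (Pi.single j 1), ?_, ?_⟩
  · intro h0
    have := congrFun h0 i
    simp at this
    exact hij this
  · rw [Matrix.mulVec_mulVec, hsq, Matrix.zero_mulVec]

/-- The kernel of a nonzero `2 × 2` matrix is at most a line. -/
theorem mat2_ker_line (N : Matrix (Fin 2) (Fin 2) F) (hN : N ≠ 0) (v w : Fin 2 → F) (hv : v ≠ 0)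
    (hNv : N.mulVec v = 0) (hNw : N.mulVec w = 0) : ∃ c : F, w = c • v := by
  have ev : ∀ i, N i 0 * v 0 + N i 1 * v 1 = 0 := by
    intro i
    have := congrFun hNv i
    simpa [Matrix.mulVec, dotProduct, Fin.sum_univ_two] using this
  have ew : ∀ i, N i 0 * w 0 + N i 1 * w 1 = 0 := by
    intro i
    have := congrFun hNw i
    simpa [Matrix.mulVec, dotProduct, Fin.sum_univ_two] using this
  have hD : v 0 * w 1 - v 1 * w 0 = 0 := by
    by_contra hD
    apply hN
    ext i j
    have h0 : (v 0 * w 1 - v 1 * w 0) * N i 0 = 0 := by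
      linear_combination w 1 * ev i - v 1 * ew i
    have h1 : (v 0 * w 1 - v 1 * w 0) * N i 1 = 0 := by
      linear_combination v 0 * ew i - w 0 * ev i
    fin_cases j
    · rcases mul_eq_zero.mp h0 with h | h
      · exact absurd h hD
      · simpa using h
    · rcases mul_eq_zero.mp h1 with h | h
      · exact absurd h hD
      · simpa using h
  by_cases hv0 : v 0 = 0
  · have hv1 : v 1 ≠ 0 := by
      intro hv1
      apply hv
      ext i
      fin_cases i
      · simpa using hv0
      · simpa using hv1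
    refine ⟨w 1 / v 1, ?_⟩
    ext i
    fin_cases i
    · have hw0 : w 0 = 0 := by
        rw [hv0] at hD
        have : v 1 * w 0 = 0 := by linear_combination -hD
        rcases mul_eq_zero.mp this with h | h
        · exact absurd h hv1
        · exact h
      simp [hw0, hv0]
    · simp [div_mul_cancel₀ _ hv1]
  · refine ⟨w 0 / v 0, ?_⟩
    ext i
    fin_cases i
    · simp [div_mul_cancel₀ _ hv0]
    · simp only [Fin.mk_one, Pi.smul_apply, smul_eq_mul]
      rw [div_mul_eq_mul_div, eq_div_iff hv0]
      linear_combination hD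

end Mat2

end Cfsg.Agent.Lib.Helper21
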