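import Mathlib
import Cfsg.Agent.Lib.Helper21.Basic
import Cfsg.Agent.Lib.Helper21.Wielandt

set_option autoImplicit false

namespace Cfsg.Agent.Lib.Helper21

open scoped commutatorElement

section NormMap

variable {X : Type*} [Group X]

/-- Coprime action with `[P, A] = P`: the fixed points of `A` on `P` lie in `[P, P]`
(norm map into the abelianization). -/
theorem centralizer_le_commutator_of_commutator_eq [Finite X] {p : ℕ} [Fact p.Prime]
    (A P : Subgroup X) (hP : IsPGroup p P) (hAP : A ≤ Subgroup.normalizer (P : Set X))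
    (hAp : (Nat.card A).Coprime p) (hPA : ⁅P, A⁆ = P) :
    P ⊓ Subgroup.centralizer (A : Set X) ≤ ⁅P, P⁆ := by
  classical
  haveI : Fintype A := Fintype.ofFinite A
  let φ : A → (↥P →* ↥P) := fun a =>
    { toFun := fun x => ⟨(a : X) * x * (a : X)⁻¹, conj_mem_of_mem_normalizer (hAP a.2) x.2⟩
      map_one' := Subtype.ext (by simp)
      map_mul' := fun x y => Subtype.ext (by simp [mul_assoc]) }
  have hφ : ∀ (a : A) (x : ↥P), ((φ a x : ↥P) : X) = (a : X) * x * (a : X)⁻¹ := fun a x => rfl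
  let T : ↥P →* Abelianization ↥P := ∏ a : A, (Abelianization.of).comp (φ a)
  have hT : ∀ x : ↥P, T x = ∏ a : A, Abelianization.of (φ a x) := fun x => by
    show (∏ a : A, (Abelianization.of).comp (φ a)) x = _
    rw [MonoidHom.finsetProd_apply]
    rfl
  have hinv : ∀ (b : A) (x : ↥P), T (φ b x) = T x := by
    intro b x
    rw [hT, hT]
    apply Fintype.prod_equiv (Equiv.mulRight b)
    intro a
    congr 1
    apply Subtype.ext
    rw [hφ, hφ, hφ]
    show (a : X) * ((b : X) * x * (b : X)⁻¹) * (a : X)⁻¹ = ((a * b : A) : X) * x * ((a * b : A) : X)⁻¹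
    rw [Subgroup.coe_mul]
    group
  have hker : ⁅P, A⁆ ≤ T.ker.map P.subtype := by
    rw [Subgroup.commutator_le]
    intro x hx b hb
    refine ⟨⟨x, hx⟩ * φ ⟨b, hb⟩ (⟨x, hx⟩⁻¹), ?_, ?_⟩
    · show ⟨x, hx⟩ * φ ⟨b, hb⟩ (⟨x, hx⟩⁻¹) ∈ T.ker
      rw [MonoidHom.mem_ker, map_mul, hinv, ← map_mul, mul_inv_cancel, map_one]
    · show x * (b * x⁻¹ * b⁻¹) = ⁅x, b⁆
      rw [commutatorElement_def]; group
  intro z hz
  obtain ⟨hzP, hzC⟩ := hz
  have hz1 : T ⟨z, hzP⟩ = 1 := by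
    have h1 : z ∈ T.ker.map P.subtype := hker (hPA.symm ▸ hzP)
    obtain ⟨w, hw, hwz⟩ := h1
    have h2 : w = ⟨z, hzP⟩ := Subtype.ext hwz
    rw [h2] at hw
    exact hw
  have hz2 : T ⟨z, hzP⟩ = (Abelianization.of ⟨z, hzP⟩) ^ (Nat.card A) := by
    rw [hT]
    have h1 : ∀ a : A, Abelianization.of (φ a ⟨z, hzP⟩) = Abelianization.of (⟨z, hzP⟩ : ↥P) := by
      intro a
      congr 1
      apply Subtype.ext
      show (a : X) * z * (a : X)⁻¹ = z
      have h2 := (Subgroup.mem_centralizer_iff.mp hzC) a a.2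
      rw [h2]; group
    rw [Finset.prod_congr rfl (fun a _ => h1 a), Finset.prod_const, Finset.card_univ,
      Nat.card_eq_fintype_card]
  have hz3 : (⟨z, hzP⟩ : ↥P) ^ (Nat.card A) ∈ commutator ↥P := by
    rw [← Abelianization.ker_of, MonoidHom.mem_ker, map_pow, ← hz2, hz1]
  have hcop : (Nat.card A).Coprime (orderOf (⟨z, hzP⟩ : ↥P)) := by
    obtain ⟨k, hk⟩ := hP ⟨z, hzP⟩
    exact Nat.Coprime.coprime_dvd_right (orderOf_dvd_of_pow_eq_one hk)
      (Nat.Coprime.pow_right k hAp)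
  obtain ⟨m, hm⟩ := exists_pow_eq_self_of_coprime hcop
  have hz4 : (⟨z, hzP⟩ : ↥P) ∈ commutator ↥P := by
    rw [← hm]; exact Subgroup.pow_mem _ hz3 m
  rw [← Subgroup.map_subtype_commutator]
  exact ⟨_, hz4, rfl⟩

end NormMap

end Cfsg.Agent.Lib.Helper21
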