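import Mathlib
import Cfsg.Agent.Lib.Helper18.Zsig

set_option autoImplicit false

namespace Cfsg.Agent.Lib.Helper21

open Polynomial Cfsg.Agent.Lib.Helper18

section PrimPart1

theorem half_prod_lower (N : ℕ) (hN : 1 ≤ N) :
    (1 / 4 : ℝ) + (1 / 2) ^ (N + 1) ≤ ∏ k ∈ Finset.Icc 1 N, (1 - (1 / 2 : ℝ) ^ k) := by
  induction N, hN using Nat.le_induction with
  | base => norm_num
  | succ N hN ih =>
    rw [Finset.prod_Icc_succ_top (by omega)]
    have h1 : (0 : ℝ) ≤ 1 - (1 / 2) ^ (N + 1) := by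
      have : ((1 : ℝ) / 2) ^ (N + 1) ≤ 1 := pow_le_one₀ (by norm_num) (by norm_num)
      linarith
    have h2 := mul_le_mul_of_nonneg_right ih h1
    have h3 : ((1 : ℝ) / 2) ^ (N + 1) ≤ (1 / 2) ^ 2 :=
      pow_le_pow_of_le_one (by norm_num) (by norm_num) (by omega)
    have ht : (0 : ℝ) < (1 / 2) ^ (N + 1) := by positivity
    rw [pow_succ (1 / 2 : ℝ) (N + 1)]
    norm_num at h3
    nlinarith [mul_nonneg ht.le (sub_nonneg.mpr h3)]

theorem prod_one_sub_inv_pow_ge (x : ℝ) (hx : 2 ≤ x) (S : Finset ℕ) (hS : ∀ k ∈ S, 1 ≤ k) :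
    (1 / 4 : ℝ) ≤ ∏ k ∈ S, (1 - (x ^ k)⁻¹) := by
  obtain ⟨N, hN⟩ : ∃ N : ℕ, N = max 1 (S.sup id) := ⟨_, rfl⟩
  have hN1 : 1 ≤ N := by rw [hN]; exact le_max_left _ _
  have hsub : S ⊆ Finset.Icc 1 N := by
    intro k hk
    rw [Finset.mem_Icc]
    refine ⟨hS k hk, ?_⟩
    rw [hN]
    exact le_max_of_le_right (Finset.le_sup (f := id) hk)
  have hh0 : ∀ k : ℕ, (0 : ℝ) ≤ 1 - (1 / 2 : ℝ) ^ k := by
    intro k
    have : ((1 : ℝ) / 2) ^ k ≤ 1 := pow_le_one₀ (by norm_num) (by norm_num)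
    linarith
  have hh1 : ∀ k : ℕ, 1 - (1 / 2 : ℝ) ^ k ≤ 1 := by
    intro k
    have : (0 : ℝ) ≤ (1 / 2) ^ k := by positivity
    linarith
  have h1 : ∏ k ∈ S, (1 - (1 / 2 : ℝ) ^ k) ≤ ∏ k ∈ S, (1 - (x ^ k)⁻¹) := by
    apply Finset.prod_le_prod
    · intro k _; exact hh0 k
    · intro k _
      have h2k : (0 : ℝ) < 2 ^ k := by positivity
      have hle : (2 : ℝ) ^ k ≤ x ^ k := pow_le_pow_left₀ (by norm_num) hx k
      have hinv : (x ^ k)⁻¹ ≤ ((2 : ℝ) ^ k)⁻¹ := inv_anti₀ h2k hle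
      have he : ((1 : ℝ) / 2) ^ k = ((2 : ℝ) ^ k)⁻¹ := by rw [one_div, inv_pow]
      rw [he]
      linarith
  have h2 : ∏ k ∈ Finset.Icc 1 N, (1 - (1 / 2 : ℝ) ^ k) ≤ ∏ k ∈ S, (1 - (1 / 2 : ℝ) ^ k) := by
    rw [← Finset.prod_sdiff hsub]
    have hA : ∏ k ∈ Finset.Icc 1 N \ S, (1 - (1 / 2 : ℝ) ^ k) ≤ 1 :=
      Finset.prod_le_one (fun k _ => hh0 k) (fun k _ => hh1 k)
    have hB : (0 : ℝ) ≤ ∏ k ∈ S, (1 - (1 / 2 : ℝ) ^ k) := Finset.prod_nonneg (fun k _ => hh0 k)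
    exact mul_le_of_le_one_left hB hA
  have h3 := half_prod_lower N hN1
  have h4 : (0 : ℝ) ≤ (1 / 2) ^ (N + 1) := by positivity
  linarith

theorem pow_totient_le_four_mul_cycVal (n a : ℕ) (hn : 0 < n) (ha : 2 ≤ a) :
    a ^ n.totient ≤ 4 * cycVal n a := by
  have hx : (2 : ℝ) ≤ (a : ℝ) := by exact_mod_cast ha
  have hx1 : (1 : ℝ) < (a : ℝ) := by linarith
  have hx0 : (0 : ℝ) < (a : ℝ) := by linarith
  obtain ⟨f, hf⟩ : ∃ f : ℕ → ℝ,
      f = fun n => (cyclotomic n ℝ).eval (a : ℝ) / (a : ℝ) ^ n.totient := ⟨_, rfl⟩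
  obtain ⟨g, hg⟩ : ∃ g : ℕ → ℝ, g = fun n => 1 - ((a : ℝ) ^ n)⁻¹ := ⟨_, rfl⟩
  have hfpos : ∀ n, 0 < f n := by
    intro n; rw [hf]; exact div_pos (cyclotomic_pos' n hx1) (pow_pos hx0 _)
  have hgpos : ∀ n, 0 < n → 0 < g n := by
    intro n hn
    rw [hg]
    have h1 : ((a : ℝ) ^ n)⁻¹ < 1 := inv_lt_one_of_one_lt₀ (one_lt_pow₀ hx1 hn.ne')
    show 0 < 1 - ((a : ℝ) ^ n)⁻¹
    linarith
  have hgle : ∀ n, g n ≤ 1 := by
    intro n
    rw [hg]
    have h1 : (0 : ℝ) ≤ ((a : ℝ) ^ n)⁻¹ := by positivity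
    show 1 - ((a : ℝ) ^ n)⁻¹ ≤ 1
    linarith
  have hprod : ∀ n > 0, ∏ i ∈ n.divisors, f i = g n := by
    intro n hn
    rw [hf, hg]
    show ∏ i ∈ n.divisors, (cyclotomic i ℝ).eval (a : ℝ) / (a : ℝ) ^ i.totient =
      1 - ((a : ℝ) ^ n)⁻¹
    rw [Finset.prod_div_distrib, Finset.prod_pow_eq_pow_sum, Nat.sum_totient, ← eval_prod,
      prod_cyclotomic_eq_X_pow_sub_one hn]
    simp only [eval_sub, eval_pow, eval_X, eval_one]
    have hne : ((a : ℝ) ^ n) ≠ 0 := (pow_pos hx0 n).ne'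
    field_simp
  have hmoeb := (ArithmeticFunction.prod_eq_iff_prod_pow_moebius_eq_of_nonzero
    (fun n _ => (hfpos n).ne') (fun n hn => (hgpos n hn).ne')).mp hprod n hn
  have h1 : ∏ x ∈ n.divisorsAntidiagonal, g x.snd ≤
      ∏ x ∈ n.divisorsAntidiagonal, g x.snd ^ ArithmeticFunction.moebius x.fst := by
    apply Finset.prod_le_prod
    · intro x hx
      have hpos : 0 < x.snd := by
        rcases Nat.eq_zero_or_pos x.snd with h0 | h0
        · exfalso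
          have := (Nat.mem_divisorsAntidiagonal.mp hx).1
          rw [h0, mul_zero] at this
          omega
        · exact h0
      exact (hgpos x.snd hpos).le
    · intro x hx
      have hpos : 0 < x.snd := by
        rcases Nat.eq_zero_or_pos x.snd with h0 | h0
        · exfalso
          have := (Nat.mem_divisorsAntidiagonal.mp hx).1
          rw [h0, mul_zero] at this
          omega
        · exact h0
      have hgp := hgpos x.snd hpos
      have hle1 := hgle x.snd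
      have hμ := ArithmeticFunction.abs_moebius_le_one (n := x.fst)
      have hcases : ArithmeticFunction.moebius x.fst = -1 ∨ ArithmeticFunction.moebius x.fst = 0 ∨
          ArithmeticFunction.moebius x.fst = 1 := by
        rw [abs_le] at hμ; omega
      rcases hcases with h | h | h
      · rw [h, zpow_neg_one]
        exact hle1.trans ((one_le_inv₀ hgp).mpr hle1)
      · rw [h, zpow_zero]; exact hle1
      · rw [h, zpow_one]
  have h2 : ∏ x ∈ n.divisorsAntidiagonal, g x.snd = ∏ k ∈ n.divisors, g k :=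
    Nat.prod_divisorsAntidiagonal' (fun _ k => g k)
  have h3 : (1 / 4 : ℝ) ≤ ∏ k ∈ n.divisors, g k := by
    rw [hg]
    exact prod_one_sub_inv_pow_ge (a : ℝ) hx n.divisors (fun k hk => Nat.pos_of_mem_divisors hk)
  have h4 : (1 / 4 : ℝ) ≤ f n := by
    rw [← hmoeb]
    rw [h2] at h1
    linarith
  rw [hf] at h4
  have h5 : (a : ℝ) ^ n.totient ≤ 4 * (cyclotomic n ℝ).eval (a : ℝ) := by
    have h6 := (le_div_iff₀ (pow_pos hx0 _)).mp h4
    linarith
  rw [← cycVal_cast n a (by omega)] at h5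
  exact_mod_cast h5

end PrimPart1

end Cfsg.Agent.Lib.Helper21
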