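import Mathlib
import Cfsg.Agent.Lib.Helper21.PrimPart1

set_option autoImplicit false

namespace Cfsg.Agent.Lib.Helper21

open Polynomial Cfsg.Agent.Lib.Helper18

section PrimPart2

/-- The primitive part of `a ^ n - 1`, as a quotient of the cyclotomic value. -/
noncomputable def primPart (n a : ℕ) : ℕ := cycVal n a / Nat.gcd (cycVal n a) n

theorem primPart_mul (n a : ℕ) : primPart n a * Nat.gcd (cycVal n a) n = cycVal n a :=
  Nat.div_mul_cancel (Nat.gcd_dvd_left _ _)

theorem primPart_dvd_cycVal (n a : ℕ) : primPart n a ∣ cycVal n a :=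
  Dvd.intro _ (primPart_mul n a)

theorem cycVal_dvd_pow_sub_one (n a : ℕ) (hn : 1 < n) (ha : 0 < a) : cycVal n a ∣ a ^ n - 1 := by
  have h1 := mul_cycVal_dvd (n := n) (d := 1) (a := a) ha
    (by rw [Nat.mem_properDivisors]; exact ⟨one_dvd _, hn⟩)
  exact (Dvd.intro_left _ rfl).trans h1

theorem primPart_dvd (n a : ℕ) (hn : 1 < n) (ha : 0 < a) : primPart n a ∣ a ^ n - 1 :=
  (primPart_dvd_cycVal n a).trans (cycVal_dvd_pow_sub_one n a hn ha)

theorem primPart_coprime (n a : ℕ) (hn : 2 < n) (ha : 1 < a) (i : ℕ) (hi1 : 1 ≤ i)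
    (hin : i < n) : Nat.Coprime (primPart n a) (a ^ i - 1) := by
  apply Nat.coprime_of_dvd
  intro r hr hrm hri
  haveI : Fact r.Prime := ⟨hr⟩
  have hrc : r ∣ cycVal n a := hrm.trans (primPart_dvd_cycVal n a)
  obtain ⟨k, m, hk, hnm, -, -, hsq⟩ := structure_of_nonprimitive hn ha hrc ⟨i, hi1, hin, hri⟩
  apply hsq
  have hrn : r ∣ n := hnm ▸ dvd_mul_of_dvd_left (dvd_pow_self r hk.ne') m
  have hrg : r ∣ Nat.gcd (cycVal n a) n := Nat.dvd_gcd hrc hrn
  rw [← primPart_mul n a, pow_two]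
  exact Nat.mul_dvd_mul hrm hrg

theorem cycVal_le_mul_primPart (n a : ℕ) (hn : 0 < n) : cycVal n a ≤ n * primPart n a := by
  have h := primPart_mul n a
  have hg : Nat.gcd (cycVal n a) n ≤ n := Nat.le_of_dvd hn (Nat.gcd_dvd_right _ _)
  calc cycVal n a = primPart n a * Nat.gcd (cycVal n a) n := h.symm
    _ ≤ primPart n a * n := Nat.mul_le_mul_left _ hg
    _ = n * primPart n a := mul_comm _ _

theorem primPart_ge_of_generic (n a : ℕ) (hn : 2 < n) (ha : 1 < a)
    (hG : 12 * n ^ 2 < a ^ n.totient) : 3 * n + 1 ≤ primPart n a := by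
  have h1 := pow_totient_le_four_mul_cycVal n a (by omega) ha
  have h2 := cycVal_le_mul_primPart n a (by omega : 0 < n)
  by_contra hcon
  push Not at hcon
  have h3 : n * primPart n a ≤ n * (3 * n) := Nat.mul_le_mul_left _ (by omega)
  nlinarith

theorem totient_sq_bound (n : ℕ) : (n ≤ 2 * n.totient ^ 2) ∧ (Odd n → n ≤ n.totient ^ 2) := by
  induction n using Nat.recOnPosPrimePosCoprime with
  | prime_pow p k hp hk =>
    obtain ⟨j, rfl⟩ : ∃ j, k = j + 1 := ⟨k - 1, by omega⟩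
    rw [Nat.totient_prime_pow hp hk, Nat.add_sub_cancel]
    have hpj : 1 ≤ p ^ j := Nat.one_le_pow _ _ hp.pos
    rcases hp.eq_two_or_odd' with h2 | hodd
    · subst h2
      constructor
      · have : (2 : ℕ) ^ (j + 1) = 2 ^ j * 2 := pow_succ 2 j
        have h3 : 2 ^ j ≤ (2 ^ j) ^ 2 := Nat.le_self_pow (by norm_num) _
        simp only [Nat.add_one_sub_one, mul_one]
        nlinarith
      · intro hodd
        exfalso
        have : Even (2 ^ (j + 1)) := (Nat.even_pow' (by omega)).mpr even_two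
        exact (Nat.not_odd_iff_even.mpr this) hodd
    · have hp3 : 3 ≤ p := by
        have := hp.two_le
        rcases hodd with ⟨c, hc⟩
        omega
      have hkey : p ^ (j + 1) ≤ (p ^ j * (p - 1)) ^ 2 := by
        obtain ⟨t, rfl⟩ : ∃ t, p = t + 1 := ⟨p - 1, by omega⟩
        rw [Nat.add_sub_cancel, mul_pow, pow_succ]
        have h3 : (t + 1) ^ j ≤ ((t + 1) ^ j) ^ 2 := Nat.le_self_pow (by norm_num) _
        have h4 : t + 1 ≤ t ^ 2 := by nlinarith
        exact Nat.mul_le_mul h3 h4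
      exact ⟨by omega, fun _ => hkey⟩
  | zero => exact ⟨by simp, fun h => by simp at h⟩
  | one => exact ⟨by simp, fun _ => by simp⟩
  | coprime a b ha hb hab iha ihb =>
    rw [Nat.totient_mul hab, mul_pow]
    have hbothodd : Odd (a * b) → a * b ≤ a.totient ^ 2 * b.totient ^ 2 := by
      intro hodd
      rw [Nat.odd_mul] at hodd
      exact Nat.mul_le_mul (iha.2 hodd.1) (ihb.2 hodd.2)
    refine ⟨?_, hbothodd⟩
    rcases Nat.even_or_odd a with hae | hao
    · have hbo : Odd b := by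
        rcases Nat.even_or_odd b with hbe | hbo
        · exfalso
          exact Nat.not_coprime_of_dvd_of_dvd (by norm_num : 1 < 2) hae.two_dvd hbe.two_dvd hab
        · exact hbo
      have := Nat.mul_le_mul iha.1 (ihb.2 hbo)
      nlinarith
    · have := Nat.mul_le_mul (iha.2 hao) ihb.1
      nlinarith

theorem pow_bound_24 (f : ℕ) (hf : 24 ≤ f) : 48 * f ^ 4 < 2 ^ f := by
  induction f, hf using Nat.le_induction with
  | base => norm_num
  | succ f hf ih =>
    rw [pow_succ 2 f]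
    have h24 : 24 * (f + 1) ≤ 25 * f := by omega
    have h1 := Nat.pow_le_pow_left h24 4
    rw [mul_pow, mul_pow] at h1
    obtain ⟨X, hX⟩ : ∃ X, X = (f + 1) ^ 4 := ⟨_, rfl⟩
    obtain ⟨Y, hY⟩ : ∃ Y, Y = f ^ 4 := ⟨_, rfl⟩
    obtain ⟨Z, hZ⟩ : ∃ Z, Z = 2 ^ f := ⟨_, rfl⟩
    rw [← hX, ← hY] at h1
    rw [← hY, ← hZ] at ih
    rw [← hX, ← hZ]
    norm_num at h1
    omega

end PrimPart2

end Cfsg.Agent.Lib.Helper21
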