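import Mathlib
import Cfsg.Agent.Lib.Helper21.PrimPart3

set_option autoImplicit false

namespace Cfsg.Agent.Lib.Helper21

open Cfsg.Agent.Lib.Helper18

section PrimPart4

theorem two_le_totient (n : ℕ) (hn : 3 ≤ n) : 2 ≤ n.totient := by
  have h1 := Nat.totient_even (by omega : 2 < n)
  have h2 := Nat.totient_pos.mpr (by omega : 0 < n)
  rcases h1 with ⟨c, hc⟩
  omega

theorem generic_or_fail (a n : ℕ) (ha : 2 ≤ a) (hn : 3 ≤ n) :
    12 * n ^ 2 < a ^ n.totient ∨ (a, n) ∈ failList := by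
  by_cases hn43 : 43 ≤ n
  · left
    have h1 : 12 * n ^ 2 < 2 ^ n.totient := by
      by_cases h : n < 1059
      · exact generic_range n hn43 h
      · have hb := (totient_sq_bound n).1
        have hφ : 24 ≤ n.totient := by
          by_contra hc
          push Not at hc
          have h2 : n.totient ^ 2 ≤ 23 ^ 2 := Nat.pow_le_pow_left (by omega) 2
          omega
        have hpow := pow_bound_24 n.totient hφ
        have h3 : n ^ 2 ≤ (2 * n.totient ^ 2) ^ 2 := Nat.pow_le_pow_left hb 2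
        have h4 : (2 * n.totient ^ 2) ^ 2 = 4 * n.totient ^ 4 := by ring
        omega
    exact lt_of_lt_of_le h1 (Nat.pow_le_pow_left ha _)
  · by_cases ha146 : a < 146
    · exact box_lemma a ha ha146 n hn (by omega)
    · left
      have h1 : a ^ 2 ≤ a ^ n.totient := Nat.pow_le_pow_right (by omega) (two_le_totient n hn)
      have h2 : 146 ^ 2 ≤ a ^ 2 := Nat.pow_le_pow_left (by omega) 2
      have h3 : n ^ 2 ≤ 42 ^ 2 := Nat.pow_le_pow_left (by omega) 2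
      norm_num at h2 h3
      omega

theorem prim_exists (a n : ℕ) (ha : 2 ≤ a) (hn : 3 ≤ n) (hexc : (a, n) ∉ excList) :
    ∃ m : ℕ, m ∣ a ^ n - 1 ∧ (∀ i : ℕ, 1 ≤ i → i < n → Nat.Coprime m (a ^ i - 1)) ∧
      3 * n + 1 ≤ m := by
  rcases generic_or_fail a n ha hn with hG | hF
  · exact ⟨primPart n a, primPart_dvd n a (by omega) (by omega),
      fun i hi1 hin => primPart_coprime n a (by omega) (by omega) i hi1 hin,
      primPart_ge_of_generic n a (by omega) (by omega) hG⟩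
  · rcases failList_cover (a, n) hF with h | ⟨t, ht, h1, h2⟩
    · exact absurd h hexc
    · obtain ⟨hd, hc, hb⟩ := primTable_spec t ht
      have h1' : t.1 = a := h1
      have h2' : t.2.1 = n := h2
      rw [h1', h2'] at hd hc
      rw [h2'] at hb
      exact ⟨t.2.2, hd, hc, hb⟩

theorem exc_bound (q e : ℕ) (hmem : (q, e) ∈ excList) (m : ℕ) (hm : m ∣ q ^ e - 1)
    (hcop : ∀ i : ℕ, 1 ≤ i → i < e → Nat.Coprime m (q ^ i - 1)) : m ≤ 2 * e + 1 := by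
  obtain ⟨t, ht, h1, h2⟩ := excList_cover (q, e) hmem
  obtain ⟨hfac, hR, hP0, hP⟩ := excTable_spec t ht
  have h1' : t.1 = q := h1
  have h2' : t.2.1 = e := h2
  rw [h1', h2'] at hfac hR
  rw [h2'] at hP
  have hc1 : Nat.Coprime m (∏ i ∈ Finset.Ico 1 e, (q ^ i - 1)) :=
    Nat.Coprime.prod_right
      (fun i hi => hcop i (Finset.mem_Ico.mp hi).1 (Finset.mem_Ico.mp hi).2)
  have hc2 : Nat.Coprime m t.2.2.2 := Nat.Coprime.coprime_dvd_right hR hc1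
  rw [hfac] at hm
  exact (Nat.le_of_dvd hP0 (hc2.dvd_of_dvd_mul_right hm)).trans hP

theorem prim_order (a n p : ℕ) (hp : p.Prime) (ha : 0 < a) (hn : 0 < n) (hdvd : p ∣ a ^ n - 1)
    (hprim : ∀ i : ℕ, 1 ≤ i → i < n → ¬ p ∣ a ^ i - 1) : n + 1 ≤ p := by
  haveI : Fact p.Prime := ⟨hp⟩
  have h1 : (a : ZMod p) ^ n = 1 := (dvd_pow_sub_one_iff ha).mp hdvd
  have hord : orderOf (a : ZMod p) = n := by
    rw [orderOf_eq_iff hn]
    refine ⟨h1, fun m hmn hm0 hcon => ?_⟩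
    exact hprim m hm0 hmn ((dvd_pow_sub_one_iff ha).mpr hcon)
  have ha0 : (a : ZMod p) ≠ 0 := by
    intro h0
    rw [h0, zero_pow hn.ne'] at h1
    exact zero_ne_one h1
  have h2 : n ∣ p - 1 := hord ▸ orderOf_dvd_of_pow_eq_one (ZMod.pow_card_sub_one_eq_one ha0)
  have h4 := hp.two_le
  have h3 : n ≤ p - 1 := Nat.le_of_dvd (by omega) h2
  omega

theorem large_prime_of_prim_divisor (a n m : ℕ) (ha : 2 ≤ a) (hn : 2 ≤ n) (hm : m ∣ a ^ n - 1)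
    (hcop : ∀ i : ℕ, 1 ≤ i → i < n → Nat.Coprime m (a ^ i - 1)) (hbig : n + 2 ≤ m) :
    ∃ p : ℕ, p.Prime ∧ p ∣ a ^ n - 1 ∧ (∀ i : ℕ, 1 ≤ i → i < n → ¬ p ∣ a ^ i - 1) ∧
      (n + 1 < p ∨ p ^ 2 ∣ a ^ n - 1) := by
  have hprim : ∀ p : ℕ, p.Prime → p ∣ m → (∀ i : ℕ, 1 ≤ i → i < n → ¬ p ∣ a ^ i - 1) := by
    intro p hp hpm i hi1 hin hpi
    have h1 : p ∣ Nat.gcd m (a ^ i - 1) := Nat.dvd_gcd hpm hpi
    rw [(hcop i hi1 hin).gcd_eq_one] at h1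
    exact hp.one_lt.ne' (Nat.dvd_one.mp h1)
  have hge : ∀ p : ℕ, p.Prime → p ∣ m → n + 1 ≤ p := fun p hp hpm =>
    prim_order a n p hp (by omega) (by omega) (hpm.trans hm) (hprim p hp hpm)
  by_cases hex : ∃ p : ℕ, p.Prime ∧ p ∣ m ∧ n + 1 < p
  · obtain ⟨p, hp, hpm, hlt⟩ := hex
    exact ⟨p, hp, hpm.trans hm, hprim p hp hpm, Or.inl hlt⟩
  · push Not at hex
    have hall : ∀ {d : ℕ}, d.Prime → d ∣ m → d = n + 1 := by
      intro d hd hdm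
      have h1 := hge d hd hdm
      have h2 := hex d hd hdm
      omega
    obtain ⟨p, hp, hpm⟩ := Nat.exists_prime_and_dvd (by omega : m ≠ 1)
    have hp1 : p = n + 1 := hall hp hpm
    have h1 := Nat.eq_prime_pow_of_unique_prime_dvd (by omega : m ≠ 0) hall
    obtain ⟨e, he⟩ : ∃ e, m = (n + 1) ^ e := ⟨_, h1⟩
    have he2 : 2 ≤ e := by
      rcases e with _ | _ | e
      · simp at he; omega
      · simp at he; omega
      · omega
    refine ⟨p, hp, hpm.trans hm, hprim p hp hpm, Or.inr ?_⟩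
    rw [hp1]
    have h2 : (n + 1) ^ 2 ∣ m := by rw [he]; exact pow_dvd_pow (n + 1) he2
    exact h2.trans hm

theorem large_prime_two (a : ℕ) (ha : 2 ≤ a)
    (h1 : ¬ ∃ s t : ℕ, t ≤ 1 ∧ a + 1 = 2 ^ s * 3 ^ t) :
    ∃ p : ℕ, p.Prime ∧ p ∣ a ^ 2 - 1 ∧ (∀ i : ℕ, 1 ≤ i → i < 2 → ¬ p ∣ a ^ i - 1) ∧
      (2 + 1 < p ∨ p ^ 2 ∣ a ^ 2 - 1) := by
  have hfac : a ^ 2 - 1 = (a - 1) * (a + 1) := by
    obtain ⟨b, rfl⟩ : ∃ b, a = b + 1 := ⟨a - 1, by omega⟩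
    have : (b + 1) ^ 2 = (b + 1 - 1) * (b + 1 + 1) + 1 := by
      simp only [Nat.add_sub_cancel]; ring
    omega
  have hnd : ∀ p : ℕ, p.Prime → p ≠ 2 → p ∣ a + 1 →
      ∀ i : ℕ, 1 ≤ i → i < 2 → ¬ p ∣ a ^ i - 1 := by
    intro p hp hp2 hpa i hi1 hi2 hdvd
    have hi : i = 1 := by omega
    subst hi
    rw [pow_one] at hdvd
    have h3 : p ∣ (a + 1) - (a - 1) := Nat.dvd_sub hpa hdvd
    have h4 : (a + 1) - (a - 1) = 2 := by omega
    rw [h4] at h3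
    exact hp2 ((Nat.prime_dvd_prime_iff_eq hp Nat.prime_two).mp h3)
  obtain ⟨s, u, hu2, hsu⟩ :=
    Nat.exists_eq_pow_mul_and_not_dvd (by omega : a + 1 ≠ 0) 2 (by norm_num)
  have hu0 : u ≠ 0 := by
    rintro rfl
    exact hu2 (dvd_zero 2)
  obtain ⟨t, w, hw3, htw⟩ := Nat.exists_eq_pow_mul_and_not_dvd hu0 3 (by norm_num)
  by_cases hw1 : w = 1
  · subst hw1
    rw [mul_one] at htw
    have ht2 : 2 ≤ t := by
      by_contra hc
      push Not at hc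
      exact h1 ⟨s, t, by omega, by rw [hsu, htw]⟩
    have h9 : 3 ^ 2 ∣ a + 1 := by
      rw [hsu, htw]
      exact dvd_mul_of_dvd_right (pow_dvd_pow 3 ht2) _
    have h3 : 3 ∣ a + 1 := (dvd_pow_self 3 (by norm_num : 2 ≠ 0)).trans h9
    refine ⟨3, Nat.prime_three, ?_, hnd 3 Nat.prime_three (by norm_num) h3, Or.inr ?_⟩
    · rw [hfac]; exact dvd_mul_of_dvd_right h3 _
    · rw [hfac]; exact dvd_mul_of_dvd_right h9 _
  · obtain ⟨p, hp, hpw⟩ := Nat.exists_prime_and_dvd hw1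
    have hp2 : p ≠ 2 := by
      rintro rfl
      apply hu2
      rw [htw]
      exact dvd_mul_of_dvd_right hpw _
    have hp3 : p ≠ 3 := by
      rintro rfl
      exact hw3 hpw
    have hpa : p ∣ a + 1 := by
      rw [hsu, htw]
      exact dvd_mul_of_dvd_right (dvd_mul_of_dvd_right hpw _) _
    have hp5 : 2 + 1 < p := by
      have := hp.two_le
      omega
    exact ⟨p, hp, by rw [hfac]; exact dvd_mul_of_dvd_right hpa _, hnd p hp hp2 hpa, Or.inl hp5⟩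

theorem feit_large_prime (q n : ℕ) (hq : 2 ≤ q) (hn : 2 ≤ n)
    (h1 : ¬ (n = 2 ∧ ∃ s t : ℕ, t ≤ 1 ∧ q + 1 = 2 ^ s * 3 ^ t))
    (h2 : ¬ (q = 2 ∧ (n = 4 ∨ n = 6 ∨ n = 10 ∨ n = 12 ∨ n = 18)))
    (h3 : ¬ (q = 3 ∧ (n = 4 ∨ n = 6))) (h4 : ¬ (q = 5 ∧ n = 6)) :
    ∃ p : ℕ, p.Prime ∧ p ∣ q ^ n - 1 ∧ (∀ i : ℕ, 1 ≤ i → i < n → ¬ p ∣ q ^ i - 1) ∧
      (n + 1 < p ∨ p ^ 2 ∣ q ^ n - 1) := by
  by_cases hn2 : n = 2
  · subst hn2
    exact large_prime_two q hq (fun ⟨s, t, ht, hst⟩ => h1 ⟨rfl, s, t, ht, hst⟩)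
  · have hn3 : 3 ≤ n := by omega
    obtain ⟨m, hm, hcop, hbig⟩ : ∃ m : ℕ, m ∣ q ^ n - 1 ∧
        (∀ i : ℕ, 1 ≤ i → i < n → Nat.Coprime m (q ^ i - 1)) ∧ n + 2 ≤ m := by
      by_cases hexc : (q, n) ∈ excList
      · have h5 : ∃ t ∈ primFive, t.1 = q ∧ t.2.1 = n := by
          simp only [excList, List.mem_cons, Prod.mk.injEq, List.mem_nil_iff, or_false] at hexc
          rcases hexc with ⟨rfl, rfl⟩ | ⟨rfl, rfl⟩ | ⟨rfl, rfl⟩ | ⟨rfl, rfl⟩ | ⟨rfl, rfl⟩ |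
            ⟨rfl, rfl⟩ | ⟨rfl, rfl⟩ | ⟨rfl, rfl⟩ | ⟨rfl, rfl⟩ | ⟨rfl, rfl⟩ | ⟨rfl, rfl⟩ |
            ⟨rfl, rfl⟩ | ⟨rfl, rfl⟩
          · exact absurd ⟨rfl, by decide⟩ h2
          · exact absurd ⟨rfl, by decide⟩ h2
          · exact absurd ⟨rfl, by decide⟩ h2
          · exact absurd ⟨rfl, by decide⟩ h2
          · exact absurd ⟨rfl, by decide⟩ h2
          · exact absurd ⟨rfl, by decide⟩ h3
          · exact absurd ⟨rfl, by decide⟩ h3
          · exact absurd ⟨rfl, rfl⟩ h4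
          · exact ⟨(2, 3, 7), by decide, rfl, rfl⟩
          · exact ⟨(2, 8, 17), by decide, rfl, rfl⟩
          · exact ⟨(2, 20, 41), by decide, rfl, rfl⟩
          · exact ⟨(4, 3, 7), by decide, rfl, rfl⟩
          · exact ⟨(4, 6, 13), by decide, rfl, rfl⟩
        obtain ⟨t, ht, e1, e2⟩ := h5
        obtain ⟨hd, hc, hb⟩ := primFive_spec t ht
        rw [e1, e2] at hd hc
        rw [e2] at hb
        exact ⟨t.2.2, hd, hc, hb⟩
      · obtain ⟨m, hm, hc, hb⟩ := prim_exists q n hq hn3 hexc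
        exact ⟨m, hm, hc, by omega⟩
    exact large_prime_of_prim_divisor q n m hq hn hm hcop hbig

end PrimPart4

end Cfsg.Agent.Lib.Helper21
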