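import Mathlib
import Cfsg.Agent.Lib.Helper21.Basic

set_option autoImplicit false

namespace Cfsg.Agent.Lib.Helper21

section r3typelevel

variable {X : Type*} [Group X]

/-- a proper inclusion of finite subgroups at least doubles the order -/
theorem r3_two_mul_card_le [Finite X] {H K : Subgroup X} (h : H ≤ K) {a : X} (haK : a ∈ K)
    (haH : a ∉ H) : 2 * Nat.card H ≤ Nat.card K := by
  obtain ⟨m, hm⟩ := Subgroup.card_dvd_of_le h
  have hne : Nat.card K ≠ Nat.card H := by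
    intro heq
    have := Subgroup.eq_of_le_of_card_ge h heq.le
    exact haH (this ▸ haK)
  have hm2 : 2 ≤ m := by
    by_contra hlt
    push Not at hlt
    interval_cases m
    · rw [mul_zero] at hm
      have : 0 < Nat.card K := Nat.card_pos
      omega
    · rw [mul_one] at hm; exact hne hm
  rw [hm]
  calc 2 * Nat.card H = Nat.card H * 2 := mul_comm _ _
    _ ≤ Nat.card H * m := Nat.mul_le_mul_left _ hm2

/-- elements of `N ⊔ ⟨y⟩` when `y ^ 2 ∈ N` -/
theorem r3_mem_sup_zpowers (N : Subgroup X) [N.Normal] {y a : X} (hy : y ^ 2 ∈ N)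
    (ha : a ∈ N ⊔ Subgroup.zpowers y) : a ∈ N ∨ y * a ∈ N := by
  have ha' : a ∈ ((N ⊔ Subgroup.zpowers y : Subgroup X) : Set X) := ha
  rw [Subgroup.normal_mul] at ha'
  obtain ⟨n, hn, m, hm, rfl⟩ := Set.mem_mul.mp ha'
  obtain ⟨k, rfl⟩ := Subgroup.mem_zpowers_iff.mp hm
  have hk : y ^ k = (y ^ 2) ^ (k / 2) * y ^ (k % 2) := by
    rw [← zpow_natCast y 2, ← zpow_mul, ← zpow_add]
    congr 1
    omega
  rcases Int.emod_two_eq_zero_or_one k with h0 | h1
  · left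
    rw [hk, h0, zpow_zero, mul_one]
    exact N.mul_mem hn (N.zpow_mem hy _)
  · right
    have hn' : n * (y ^ 2) ^ (k / 2) ∈ N := N.mul_mem hn (N.zpow_mem hy _)
    have e : y * (n * y ^ k) = y * (n * (y ^ 2) ^ (k / 2)) * y⁻¹ * y ^ 2 := by
      rw [hk, h1, zpow_one]; group
    rw [e]
    exact N.mul_mem (Subgroup.Normal.conj_mem inferInstance _ hn' y) hy

/-- commuting pair lemma: in a group with a central subgroup `N` of index at least 8 and all
commutators in a central elementary abelian `Z ≤ N` of order at most 4, two commuting elements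
are independent modulo `N`. -/
theorem r3_comm_pair [Finite X] (N Z : Subgroup X)
    (hNc : N ≤ Subgroup.center X) (hZN : Z ≤ N)
    (hcomm : ∀ a b : X, a * b * a⁻¹ * b⁻¹ ∈ Z) (hZ2 : ∀ z ∈ Z, z ^ 2 = 1)
    (hZ4 : Nat.card Z ≤ 4) (hcard : 8 * Nat.card N ≤ Nat.card X) :
    ∃ y w : X, y * w = w * y ∧ y ∉ N ∧ w ∉ N ∧ y * w ∉ N := by
  classical
  by_contra hcon
  push Not at hcon
  have hcen : ∀ a b : X, a * b * a⁻¹ * b⁻¹ ∈ Subgroup.center X :=
    fun a b => hNc (hZN (hcomm a b))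
  obtain ⟨c, hc⟩ : ∃ c : X → (X →* X), ∀ y w, c y w = y * w * y⁻¹ * w⁻¹ := by
    refine ⟨fun y => MonoidHom.mk' (fun w => y * w * y⁻¹ * w⁻¹) ?_, fun y w => rfl⟩
    intro w w'
    have h2 := Subgroup.mem_center_iff.mp (hcen y w') w⁻¹
    show y * (w * w') * y⁻¹ * (w * w')⁻¹ = y * w * y⁻¹ * w⁻¹ * (y * w' * y⁻¹ * w'⁻¹)
    calc y * (w * w') * y⁻¹ * (w * w')⁻¹
        = y * w * y⁻¹ * ((y * w' * y⁻¹ * w'⁻¹) * w⁻¹) := by group
      _ = y * w * y⁻¹ * (w⁻¹ * (y * w' * y⁻¹ * w'⁻¹)) := by rw [← h2]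
      _ = y * w * y⁻¹ * w⁻¹ * (y * w' * y⁻¹ * w'⁻¹) := by group
  have hrange : ∀ y, (c y).range ≤ Z := by
    rintro y _ ⟨w, rfl⟩
    rw [hc]; exact hcomm y w
  have hker : ∀ y w, w ∈ (c y).ker ↔ y * w = w * y := by
    intro y w
    rw [MonoidHom.mem_ker, hc]
    constructor
    · intro h
      have h' : y * w * y⁻¹ * w⁻¹ * (w * y) = w * y := by rw [h, one_mul]
      rw [← h']; group
    · intro h
      rw [h]; group
  have hcardX : ∀ y, Nat.card X = Nat.card (c y).ker * Nat.card (c y).range := by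
    intro y
    rw [← Subgroup.index_ker, Subgroup.card_mul_index]
  have hNcard : Set.ncard (N : Set X) = Nat.card N := (Nat.card_coe_set_eq (N : Set X)).symm
  have hk2 : ∀ y, y ∉ N → Nat.card (c y).ker ≤ 2 * Nat.card N := by
    intro y hy
    have hsub : ((c y).ker : Set X) ⊆ (N : Set X) ∪ (fun n => y⁻¹ * n) '' (N : Set X) := by
      intro w hw
      have hw' := (hker y w).mp hw
      by_cases hwN : w ∈ N
      · exact Or.inl hwN
      · right
        exact ⟨y * w, hcon y w hw' hy hwN, by group⟩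
    calc Nat.card (c y).ker = Set.ncard ((c y).ker : Set X) :=
          Nat.card_coe_set_eq ((c y).ker : Set X)
      _ ≤ Set.ncard ((N : Set X) ∪ (fun n => y⁻¹ * n) '' (N : Set X)) :=
          Set.ncard_le_ncard hsub (Set.toFinite _)
      _ ≤ Set.ncard (N : Set X) + Set.ncard ((fun n => y⁻¹ * n) '' (N : Set X)) :=
          Set.ncard_union_le _ _
      _ ≤ Set.ncard (N : Set X) + Set.ncard (N : Set X) :=
          Nat.add_le_add_left (Set.ncard_image_le (Set.toFinite _)) _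
      _ = 2 * Nat.card N := by rw [hNcard, two_mul]
  have hNpos : 0 < Nat.card N := Nat.card_pos
  have hr4 : ∀ y, y ∉ N → (c y).range = Z ∧ Nat.card Z = 4 := by
    intro y hy
    have h1 := hcardX y
    have h2 := hk2 y hy
    have h3 : Nat.card (c y).range ≤ Nat.card Z := Subgroup.card_le_of_le (hrange y)
    have h4 : 4 ≤ Nat.card (c y).range := by
      by_contra hlt
      push Not at hlt
      have h5 : Nat.card (c y).ker * Nat.card (c y).range ≤ (2 * Nat.card N) * 3 :=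
        Nat.mul_le_mul h2 (by omega)
      omega
    exact ⟨Subgroup.eq_of_le_of_card_ge (hrange y) (by omega), by omega⟩
  obtain ⟨y₁, hy₁⟩ : ∃ y₁ : X, y₁ ∉ N := by
    by_contra hall
    push Not at hall
    have hN : N = ⊤ := by rw [eq_top_iff]; intro a _; exact hall a
    rw [hN, Subgroup.card_top] at hcard
    have : 0 < Nat.card X := Nat.card_pos
    omega
  obtain ⟨hR₁, hZcard⟩ := hr4 y₁ hy₁
  obtain ⟨z₁, hz₁Z, hz₁⟩ : ∃ z₁ ∈ Z, z₁ ≠ (1 : X) := by
    by_contra hall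
    push Not at hall
    have hZb : Z = ⊥ := by
      rw [eq_bot_iff]; intro a ha; exact Subgroup.mem_bot.mpr (hall a ha)
    rw [hZb, Subgroup.card_bot] at hZcard
    omega
  obtain ⟨y₂, hy₂⟩ : ∃ y₂, c y₁ y₂ = z₁ := by
    have : z₁ ∈ (c y₁).range := by rw [hR₁]; exact hz₁Z
    exact this
  have hNker : ∀ y, N ≤ (c y).ker := by
    intro y n hn
    rw [hker]
    exact Subgroup.mem_center_iff.mp (hNc hn) y
  have hy₂N : y₂ ∉ N := by
    intro h
    have := hNker y₁ h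
    rw [MonoidHom.mem_ker, hy₂] at this
    exact hz₁ this
  have hy₃ : y₁ * y₂ ∉ N := by
    intro h
    have h1 := Subgroup.mem_center_iff.mp (hNc h) y₁
    have h2 : y₁ * y₂ = y₂ * y₁ :=
      mul_left_cancel (by rw [← mul_assoc y₁ y₂ y₁]; exact h1)
    have := (hker y₁ y₂).mpr h2
    rw [MonoidHom.mem_ker, hy₂] at this
    exact hz₁ this
  have hz₁inv : z₁⁻¹ = z₁ := by
    rw [inv_eq_iff_mul_eq_one, ← pow_two]; exact hZ2 z₁ hz₁Z
  obtain ⟨Z₁, hZ₁⟩ : ∃ Z₁ : Subgroup X, Z₁ = Subgroup.zpowers z₁ := ⟨_, rfl⟩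
  have hz₁Z₁ : z₁ ∈ Z₁ := by rw [hZ₁]; exact Subgroup.mem_zpowers z₁
  have hZ₁Z : Z₁ ≤ Z := by rw [hZ₁, Subgroup.zpowers_le]; exact hz₁Z
  have hZ₁card : Nat.card Z₁ = 2 := by
    rw [hZ₁, Nat.card_zpowers]
    exact orderOf_eq_prime (hZ2 z₁ hz₁Z) hz₁
  have hrel : (Z₁.subgroupOf Z).index = 2 := by
    have h1 := card_mul_relIndex hZ₁Z
    rw [hZ₁card, hZcard] at h1
    show Z₁.relIndex Z = 2
    omega
  have hprod : ∀ u v : X, u ∈ Z → v ∈ Z → u ∉ Z₁ → v ∉ Z₁ → u * v ∈ Z₁ := by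
    intro u v hu hv hu1 hv1
    have h := (Subgroup.mul_mem_iff_of_index_two hrel (a := (⟨u, hu⟩ : ↥Z)) (b := ⟨v, hv⟩)).mpr
      ⟨fun h => absurd (Subgroup.mem_subgroupOf.mp h) hu1,
        fun h => absurd (Subgroup.mem_subgroupOf.mp h) hv1⟩
    exact Subgroup.mem_subgroupOf.mp h
  have hself : ∀ y, c y y = 1 := by
    intro y; rw [hc]; group
  have hc21 : c y₂ y₁ = z₁ := by
    have : c y₂ y₁ = (c y₁ y₂)⁻¹ := by rw [hc, hc]; group
    rw [this, hy₂, hz₁inv]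
  have key : ∀ a b : X, a ∉ N → c a b = z₁ → c b a = z₁ →
      ∀ w, c a w ∈ Z₁ → c b w ∈ Z₁ := by
    intro a b ha hab hba w hw
    rw [hZ₁] at hw
    obtain ⟨k, hk⟩ := Subgroup.mem_zpowers_iff.mp hw
    have hu : w * b ^ (-k) ∈ (c a).ker := by
      rw [MonoidHom.mem_ker, map_mul, map_zpow, hab, ← hk, ← zpow_add, add_neg_cancel, zpow_zero]
    have hu' := (hker a _).mp hu
    have hcbu : c b (w * b ^ (-k)) ∈ Z₁ := by
      by_cases huN : w * b ^ (-k) ∈ N
      · have := hNker b huN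
        rw [MonoidHom.mem_ker] at this
        rw [this]; exact Z₁.one_mem
      · have h1 := hcon a _ hu' ha huN
        have h2 := hNker b h1
        rw [MonoidHom.mem_ker, map_mul, hba] at h2
        have h3 : c b (w * b ^ (-k)) = z₁ := by
          have := inv_mul_eq_one.mp (by rw [hz₁inv]; exact h2 : z₁⁻¹ * c b (w * b ^ (-k)) = 1)
          exact this.symm
        rw [h3]; exact hz₁Z₁
    have : c b w = c b (w * b ^ (-k)) := by
      rw [map_mul, map_zpow, hself, one_zpow, mul_one]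
    rw [this]; exact hcbu
  have key12 := key y₁ y₂ hy₁ hy₂ hc21
  have key21 := key y₂ y₁ hy₂N hc21 hy₂
  have hbil : ∀ w, c (y₁ * y₂) w = c y₂ w * c y₁ w := by
    intro w
    rw [hc, hc, hc]
    have h2 := Subgroup.mem_center_iff.mp (hcen y₂ w) y₁
    calc y₁ * y₂ * w * (y₁ * y₂)⁻¹ * w⁻¹
        = y₁ * (y₂ * w * y₂⁻¹ * w⁻¹) * (w * y₁⁻¹ * w⁻¹) := by group
      _ = (y₂ * w * y₂⁻¹ * w⁻¹) * y₁ * (w * y₁⁻¹ * w⁻¹) := by rw [h2]
      _ = y₂ * w * y₂⁻¹ * w⁻¹ * (y₁ * w * y₁⁻¹ * w⁻¹) := by group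
  have hall : ∀ w, c (y₁ * y₂) w ∈ Z₁ := by
    intro w
    rw [hbil]
    by_cases h1 : c y₁ w ∈ Z₁
    · exact Z₁.mul_mem (key12 w h1) h1
    · have h2 : c y₂ w ∉ Z₁ := fun h => h1 (key21 w h)
      exact hprod _ _ (hrange y₂ ⟨w, rfl⟩) (hrange y₁ ⟨w, rfl⟩) h2 h1
  have hR₃ := (hr4 (y₁ * y₂) hy₃).1
  have hle : (c (y₁ * y₂)).range ≤ Z₁ := by
    rintro _ ⟨w, rfl⟩; exact hall w
  rw [hR₃] at hle
  have := Subgroup.card_le_of_le hle
  omega

end r3typelevel

end Cfsg.Agent.Lib.Helper21
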