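import Mathlib
import Cfsg.Agent.Lib.Helper21.Rank3

set_option autoImplicit false

namespace Cfsg.Agent.Lib.Helper21

/-- A finite group with a central elementary abelian subgroup `Φ` of order at most 4 containing all
squares and of index at least 64 has an elementary abelian subgroup of order at least 8. -/
theorem r3_exists_elemAb8 {Q : Type*} [Group Q] [Finite Q] (Φ : Subgroup Q)
    (hΦc : Φ ≤ Subgroup.center Q) (hsq : ∀ a : Q, a ^ 2 ∈ Φ) (hΦ2 : ∀ z ∈ Φ, z ^ 2 = 1)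
    (hΦ4 : Nat.card Φ ≤ 4) (hcard : 64 * Nat.card Φ ≤ Nat.card Q) :
    ∃ E : Subgroup Q, IsMulCommutative E ∧ (∀ a ∈ E, a ^ 2 = 1) ∧ 8 ≤ Nat.card E := by
  classical
  have hΦpos : 0 < Nat.card Φ := Nat.card_pos
  have hcomm : ∀ a b : Q, a * b * a⁻¹ * b⁻¹ ∈ Φ := by
    intro a b
    have e : a * b * a⁻¹ * b⁻¹ = a ^ 2 * (a⁻¹ * b) ^ 2 * (b⁻¹) ^ 2 := by
      rw [pow_two, pow_two, pow_two]; group
    rw [e]
    exact Φ.mul_mem (Φ.mul_mem (hsq a) (hsq _)) (hsq _)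
  have hcen : ∀ a b : Q, a * b * a⁻¹ * b⁻¹ ∈ Subgroup.center Q := fun a b => hΦc (hcomm a b)
  have hnormal : ∀ N : Subgroup Q, Φ ≤ N → N.Normal := by
    intro N hN
    constructor
    intro n hn g
    have e : g * n * g⁻¹ = (g * n * g⁻¹ * n⁻¹) * n := by group
    rw [e]
    exact N.mul_mem (hN (hcomm g n)) hn
  haveI hΦn : Φ.Normal := hnormal Φ le_rfl
  obtain ⟨x, hx⟩ : ∃ x : Q, x ∉ Φ := by
    by_contra hall
    push Not at hall
    have hN : Φ = ⊤ := by rw [eq_top_iff]; intro a _; exact hall a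
    rw [hN, Subgroup.card_top] at hcard
    have : 0 < Nat.card Q := Nat.card_pos
    omega
  obtain ⟨cx, hcx⟩ : ∃ cx : Q →* Q, ∀ w, cx w = x * w * x⁻¹ * w⁻¹ := by
    refine ⟨MonoidHom.mk' (fun w => x * w * x⁻¹ * w⁻¹) ?_, fun w => rfl⟩
    intro w w'
    have h2 := Subgroup.mem_center_iff.mp (hcen x w') w⁻¹
    show x * (w * w') * x⁻¹ * (w * w')⁻¹ = x * w * x⁻¹ * w⁻¹ * (x * w' * x⁻¹ * w'⁻¹)
    calc x * (w * w') * x⁻¹ * (w * w')⁻¹
        = x * w * x⁻¹ * ((x * w' * x⁻¹ * w'⁻¹) * w⁻¹) := by group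
      _ = x * w * x⁻¹ * (w⁻¹ * (x * w' * x⁻¹ * w'⁻¹)) := by rw [← h2]
      _ = x * w * x⁻¹ * w⁻¹ * (x * w' * x⁻¹ * w'⁻¹) := by group
  have hcxrange : cx.range ≤ Φ := by
    rintro _ ⟨w, rfl⟩
    rw [hcx]; exact hcomm x w
  have hcxker : ∀ w, w ∈ cx.ker ↔ x * w = w * x := by
    intro w
    rw [MonoidHom.mem_ker, hcx]
    constructor
    · intro h
      have h' : x * w * x⁻¹ * w⁻¹ * (w * x) = w * x := by rw [h, one_mul]
      rw [← h']; group
    · intro h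
      rw [h]; group
  have hcardQ : Nat.card Q = Nat.card cx.ker * Nat.card cx.range := by
    rw [← Subgroup.index_ker, Subgroup.card_mul_index]
  have hr : Nat.card cx.range ≤ 4 := (Subgroup.card_le_of_le hcxrange).trans hΦ4
  have hkercard : 16 * Nat.card Φ ≤ Nat.card cx.ker := by
    have : Nat.card cx.ker * Nat.card cx.range ≤ Nat.card cx.ker * 4 := Nat.mul_le_mul_left _ hr
    omega
  obtain ⟨Xs, hXs⟩ : ∃ Xs : Subgroup Q, Xs = cx.ker := ⟨_, rfl⟩
  rw [← hXs] at hkercard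
  have hXmem : ∀ w, w ∈ Xs ↔ x * w = w * x := by intro w; rw [hXs]; exact hcxker w
  obtain ⟨N₁, hN₁⟩ : ∃ N₁ : Subgroup Q, N₁ = Φ ⊔ Subgroup.zpowers x := ⟨_, rfl⟩
  have hΦN₁ : Φ ≤ N₁ := by rw [hN₁]; exact le_sup_left
  have hxN₁ : x ∈ N₁ := by rw [hN₁]; exact Subgroup.mem_sup_right (Subgroup.mem_zpowers x)
  have hN₁X : N₁ ≤ Xs := by
    rw [hN₁, sup_le_iff]
    refine ⟨fun n hn => (hXmem n).mpr (Subgroup.mem_center_iff.mp (hΦc hn) x), ?_⟩
    rw [Subgroup.zpowers_le]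
    exact (hXmem x).mpr rfl
  have hΦcard : Set.ncard (Φ : Set Q) = Nat.card Φ := (Nat.card_coe_set_eq (Φ : Set Q)).symm
  have hN₁card : Nat.card N₁ ≤ 2 * Nat.card Φ := by
    have hsub : (N₁ : Set Q) ⊆ (Φ : Set Q) ∪ (fun n => x⁻¹ * n) '' (Φ : Set Q) := by
      intro a ha
      have ha' : a ∈ Φ ⊔ Subgroup.zpowers x := by rw [← hN₁]; exact ha
      rcases r3_mem_sup_zpowers Φ (hsq x) ha' with h | h
      · exact Or.inl h
      · exact Or.inr ⟨x * a, h, by group⟩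
    calc Nat.card N₁ = Set.ncard (N₁ : Set Q) := Nat.card_coe_set_eq (N₁ : Set Q)
      _ ≤ Set.ncard ((Φ : Set Q) ∪ (fun n => x⁻¹ * n) '' (Φ : Set Q)) :=
          Set.ncard_le_ncard hsub (Set.toFinite _)
      _ ≤ Set.ncard (Φ : Set Q) + Set.ncard ((fun n => x⁻¹ * n) '' (Φ : Set Q)) :=
          Set.ncard_union_le _ _
      _ ≤ Set.ncard (Φ : Set Q) + Set.ncard (Φ : Set Q) :=
          Nat.add_le_add_left (Set.ncard_image_le (Set.toFinite _)) _
      _ = 2 * Nat.card Φ := by rw [hΦcard, two_mul]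
  haveI hN₁n : N₁.Normal := hnormal N₁ hΦN₁
  have hN₁cent : N₁ ≤ Subgroup.centralizer (Xs : Set Q) := by
    rw [hN₁, sup_le_iff]
    refine ⟨hΦc.trans (Subgroup.center_le_centralizer _), ?_⟩
    rw [Subgroup.zpowers_le, Subgroup.mem_centralizer_iff]
    intro h hh
    exact ((hXmem h).mp hh).symm
  have hΦX : Φ ≤ Xs := hΦN₁.trans hN₁X
  obtain ⟨y, w, hyw, hyN, hwN, hywN⟩ := r3_comm_pair (X := ↥Xs) (N₁.subgroupOf Xs)
    (Φ.subgroupOf Xs)
    (by
      intro n hn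
      rw [Subgroup.mem_center_iff]
      intro g
      apply Subtype.ext
      exact Subgroup.mem_centralizer_iff.mp (hN₁cent (Subgroup.mem_subgroupOf.mp hn)) g g.2)
    (fun z hz => Subgroup.mem_subgroupOf.mpr (hΦN₁ (Subgroup.mem_subgroupOf.mp hz)))
    (by
      intro a b
      rw [Subgroup.mem_subgroupOf]
      exact hcomm (a : Q) (b : Q))
    (by
      intro z hz
      apply Subtype.ext
      exact hΦ2 (z : Q) (Subgroup.mem_subgroupOf.mp hz))
    (by
      rw [Nat.card_congr (Subgroup.subgroupOfEquivOfLe hΦX).toEquiv]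
      exact hΦ4)
    (by
      rw [Nat.card_congr (Subgroup.subgroupOfEquivOfLe hN₁X).toEquiv]
      omega)
  have hyw' : (y : Q) * (w : Q) = (w : Q) * (y : Q) := congrArg Subtype.val hyw
  have hxy : x * (y : Q) = (y : Q) * x := (hXmem _).mp y.2
  have hxw : x * (w : Q) = (w : Q) * x := (hXmem _).mp w.2
  have hyN' : (y : Q) ∉ N₁ := fun h => hyN (Subgroup.mem_subgroupOf.mpr h)
  have hwN' : (w : Q) ∉ N₁ := fun h => hwN (Subgroup.mem_subgroupOf.mpr h)
  have hywN' : (y : Q) * (w : Q) ∉ N₁ := fun h => hywN (Subgroup.mem_subgroupOf.mpr h)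
  obtain ⟨y', hy'⟩ : ∃ y' : Q, y' = (y : Q) := ⟨_, rfl⟩
  obtain ⟨w', hw'⟩ : ∃ w' : Q, w' = (w : Q) := ⟨_, rfl⟩
  rw [← hy'] at hyw' hxy hyN' hywN'
  rw [← hw'] at hyw' hxw hwN' hywN'
  obtain ⟨N₂, hN₂⟩ : ∃ N₂ : Subgroup Q, N₂ = N₁ ⊔ Subgroup.zpowers y' := ⟨_, rfl⟩
  have hwN₂ : w' ∉ N₂ := by
    intro h
    rw [hN₂] at h
    rcases r3_mem_sup_zpowers N₁ (hΦN₁ (hsq y')) h with h | h
    · exact hwN' h
    · exact hywN' h
  obtain ⟨B, hB⟩ : ∃ B : Subgroup Q, B = N₂ ⊔ Subgroup.zpowers w' := ⟨_, rfl⟩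
  have hN₁N₂ : N₁ ≤ N₂ := by rw [hN₂]; exact le_sup_left
  have hN₂B : N₂ ≤ B := by rw [hB]; exact le_sup_left
  have hy'N₂ : y' ∈ N₂ := by rw [hN₂]; exact Subgroup.mem_sup_right (Subgroup.mem_zpowers y')
  have hw'B : w' ∈ B := by rw [hB]; exact Subgroup.mem_sup_right (Subgroup.mem_zpowers w')
  have hc1 := r3_two_mul_card_le hΦN₁ hxN₁ hx
  have hc2 := r3_two_mul_card_le hN₁N₂ hy'N₂ hyN'
  have hc3 := r3_two_mul_card_le hN₂B hw'B hwN₂
  have hBcard : 8 * Nat.card Φ ≤ Nat.card B := by omega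
  -- every element of `B` commutes with `x`, `y'`, `w'`
  have hBle : ∀ a : Q, Φ ≤ Subgroup.centralizer {a} → x ∈ Subgroup.centralizer {a} →
      y' ∈ Subgroup.centralizer {a} → w' ∈ Subgroup.centralizer {a} →
      B ≤ Subgroup.centralizer {a} := by
    intro a h1 h2 h3 h4
    rw [hB, hN₂, hN₁]
    refine sup_le (sup_le (sup_le h1 ?_) ?_) ?_
    · rw [Subgroup.zpowers_le]; exact h2
    · rw [Subgroup.zpowers_le]; exact h3
    · rw [Subgroup.zpowers_le]; exact h4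
  have hΦa : ∀ a : Q, Φ ≤ Subgroup.centralizer {a} := by
    intro a n hn
    rw [mem_centralizer_singleton]
    exact Subgroup.mem_center_iff.mp (hΦc hn) a
  have hBx : B ≤ Subgroup.centralizer {x} :=
    hBle x (hΦa x) (mem_centralizer_singleton.mpr rfl) (mem_centralizer_singleton.mpr hxy)
      (mem_centralizer_singleton.mpr hxw)
  have hBy : B ≤ Subgroup.centralizer {y'} :=
    hBle y' (hΦa y') (mem_centralizer_singleton.mpr hxy.symm) (mem_centralizer_singleton.mpr rfl)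
      (mem_centralizer_singleton.mpr hyw')
  have hBw : B ≤ Subgroup.centralizer {w'} :=
    hBle w' (hΦa w') (mem_centralizer_singleton.mpr hxw.symm)
      (mem_centralizer_singleton.mpr hyw'.symm) (mem_centralizer_singleton.mpr rfl)
  have hBcomm : ∀ a ∈ B, ∀ b ∈ B, a * b = b * a := by
    intro a ha b hb
    have hle : B ≤ Subgroup.centralizer {a} :=
      hBle a (hΦa a)
        (mem_centralizer_singleton.mpr (mem_centralizer_singleton.mp (hBx ha)).symm)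
        (mem_centralizer_singleton.mpr (mem_centralizer_singleton.mp (hBy ha)).symm)
        (mem_centralizer_singleton.mpr (mem_centralizer_singleton.mp (hBw ha)).symm)
    exact mem_centralizer_singleton.mp (hle hb)
  obtain ⟨sq, hsqdef⟩ : ∃ sq : ↥B →* Q, ∀ b : ↥B, sq b = (b : Q) ^ 2 := by
    refine ⟨MonoidHom.mk' (fun b => (b : Q) ^ 2) ?_, fun b => rfl⟩
    intro a b
    show ((a : Q) * (b : Q)) ^ 2 = (a : Q) ^ 2 * (b : Q) ^ 2
    exact (show Commute (a : Q) (b : Q) from hBcomm a a.2 b b.2).mul_pow 2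
  have hsqrange : sq.range ≤ Φ := by
    rintro _ ⟨b, rfl⟩
    rw [hsqdef]; exact hsq _
  have hcardB : Nat.card B = Nat.card sq.ker * Nat.card sq.range := by
    rw [← Subgroup.index_ker, Subgroup.card_mul_index]
  have hker8 : 8 ≤ Nat.card sq.ker := by
    have h1 : Nat.card sq.range ≤ Nat.card Φ := Subgroup.card_le_of_le hsqrange
    have h2 : Nat.card sq.ker * Nat.card sq.range ≤ Nat.card sq.ker * Nat.card Φ :=
      Nat.mul_le_mul_left _ h1
    have h3 : 8 * Nat.card Φ ≤ Nat.card sq.ker * Nat.card Φ := by omega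
    exact Nat.le_of_mul_le_mul_right h3 hΦpos
  refine ⟨sq.ker.map B.subtype, ⟨⟨fun a b => ?_⟩⟩, ?_, ?_⟩
  · apply Subtype.ext
    exact hBcomm a (Subgroup.map_subtype_le _ a.2) b (Subgroup.map_subtype_le _ b.2)
  · rintro _ ⟨k, hk, rfl⟩
    have := MonoidHom.mem_ker.mp hk
    rw [hsqdef] at this
    exact this
  · rw [Subgroup.card_map_of_injective (Subgroup.subtype_injective B)]
    exact hker8

section r3ambient

variable {G : Type*} [Group G]

/-- ambient version of `r3_exists_elemAb8` -/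
theorem r3_exists_elemAb8' [Finite G] (Q Φ : Subgroup G) (hΦQ : Φ ≤ Q)
    (hsq : ∀ x ∈ Q, x ^ 2 ∈ Φ) (hΦc : ∀ z ∈ Φ, ∀ x ∈ Q, x * z = z * x)
    (hΦ2 : ∀ z ∈ Φ, z ^ 2 = 1) (hΦ4 : Nat.card Φ ≤ 4) (hcard : 64 * Nat.card Φ ≤ Nat.card Q) :
    ∃ E : Subgroup G, E ≤ Q ∧ IsMulCommutative E ∧ (∀ a ∈ E, a ^ 2 = 1) ∧ 8 ≤ Nat.card E := by
  obtain ⟨E, hEc, hE2, hE8⟩ := r3_exists_elemAb8 (Q := ↥Q) (Φ.subgroupOf Q)
    (by
      intro z hz
      rw [Subgroup.mem_center_iff]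
      intro g
      apply Subtype.ext
      exact hΦc (z : G) (Subgroup.mem_subgroupOf.mp hz) g g.2)
    (by
      intro a
      rw [Subgroup.mem_subgroupOf]
      exact hsq a a.2)
    (by
      intro z hz
      apply Subtype.ext
      exact hΦ2 (z : G) (Subgroup.mem_subgroupOf.mp hz))
    (by
      rw [Nat.card_congr (Subgroup.subgroupOfEquivOfLe hΦQ).toEquiv]
      exact hΦ4)
    (by
      rw [Nat.card_congr (Subgroup.subgroupOfEquivOfLe hΦQ).toEquiv]
      exact hcard)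
  refine ⟨E.map Q.subtype, Subgroup.map_subtype_le E, ⟨⟨fun a b => ?_⟩⟩, ?_, ?_⟩
  · apply Subtype.ext
    obtain ⟨a', ha', hae⟩ := a.2
    obtain ⟨b', hb', hbe⟩ := b.2
    have h := congrArg Subtype.val (hEc.is_comm.comm ⟨a', ha'⟩ ⟨b', hb'⟩)
    have h' : (a' : G) * (b' : G) = (b' : G) * (a' : G) := congrArg Subtype.val h
    show (a : G) * (b : G) = (b : G) * (a : G)
    rw [← hae, ← hbe]
    exact h'
  · rintro _ ⟨k, hk, rfl⟩
    have := congrArg Subtype.val (hE2 k hk)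
    exact this
  · rw [Subgroup.card_map_of_injective (Subgroup.subtype_injective Q)]
    exact hE8

/-- adjoining a commuting involution to an elementary abelian 2-subgroup -/
theorem r3_adjoin [Finite G] (A : Subgroup G) (hAc : IsMulCommutative A)
    (hA2 : ∀ a ∈ A, a ^ 2 = 1) (z : G) (hz2 : z ^ 2 = 1) (hzA : ∀ a ∈ A, z * a = a * z)
    (hz : z ∉ A) :
    ∃ E : Subgroup G, IsMulCommutative E ∧ (∀ a ∈ E, a ^ 2 = 1) ∧ 2 * Nat.card A ≤ Nat.card E := by
  obtain ⟨E, hE⟩ : ∃ E : Subgroup G, E = A ⊔ Subgroup.zpowers z := ⟨_, rfl⟩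
  have hAE : A ≤ E := by rw [hE]; exact le_sup_left
  have hzE : z ∈ E := by rw [hE]; exact Subgroup.mem_sup_right (Subgroup.mem_zpowers z)
  have hAcomm : ∀ a ∈ A, ∀ b ∈ A, a * b = b * a := by
    intro a ha b hb
    exact congrArg Subtype.val (hAc.is_comm.comm ⟨a, ha⟩ ⟨b, hb⟩)
  have hEz : E ≤ Subgroup.centralizer {z} := by
    rw [hE, sup_le_iff]
    refine ⟨fun a ha => mem_centralizer_singleton.mpr (hzA a ha), ?_⟩
    rw [Subgroup.zpowers_le]; exact mem_centralizer_singleton.mpr rfl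
  have hEa : ∀ a ∈ A, E ≤ Subgroup.centralizer {a} := by
    intro a ha
    rw [hE, sup_le_iff]
    refine ⟨fun b hb => mem_centralizer_singleton.mpr (hAcomm a ha b hb), ?_⟩
    rw [Subgroup.zpowers_le]; exact mem_centralizer_singleton.mpr (hzA a ha).symm
  have hEcomm : ∀ a ∈ E, ∀ b ∈ E, a * b = b * a := by
    intro a ha b hb
    have hle : E ≤ Subgroup.centralizer {a} := by
      rw [hE, sup_le_iff]
      refine ⟨fun c hc => mem_centralizer_singleton.mpr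
        (mem_centralizer_singleton.mp (hEa c hc ha)).symm, ?_⟩
      rw [Subgroup.zpowers_le]
      exact mem_centralizer_singleton.mpr (mem_centralizer_singleton.mp (hEz ha)).symm
    exact mem_centralizer_singleton.mp (hle hb)
  obtain ⟨T, hT⟩ : ∃ T : Subgroup G, ∀ g, g ∈ T ↔ g ∈ E ∧ g ^ 2 = 1 := by
    refine ⟨{ carrier := {g | g ∈ E ∧ g ^ 2 = 1}
              mul_mem' := ?_
              one_mem' := ⟨E.one_mem, one_pow 2⟩
              inv_mem' := ?_ }, fun g => Iff.rfl⟩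
    · rintro a b ⟨ha, ha2⟩ ⟨hb, hb2⟩
      refine ⟨E.mul_mem ha hb, ?_⟩
      rw [(show Commute a b from hEcomm a ha b hb).mul_pow, ha2, hb2, one_mul]
    · rintro a ⟨ha, ha2⟩
      exact ⟨E.inv_mem ha, by rw [inv_pow, ha2, inv_one]⟩
  have hET : E ≤ T := by
    rw [hE, sup_le_iff]
    refine ⟨fun a ha => (hT a).mpr ⟨hAE ha, hA2 a ha⟩, ?_⟩
    rw [Subgroup.zpowers_le]
    exact (hT z).mpr ⟨hzE, hz2⟩
  refine ⟨E, ⟨⟨fun a b => Subtype.ext (hEcomm a a.2 b b.2)⟩⟩, fun a ha => ((hT a).mp (hET ha)).2,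
    r3_two_mul_card_le hAE hzE hz⟩

/-- membership in the normalizer from closure under both conjugations -/
theorem r3_mem_normalizer_of_conj (R : Subgroup G) (g : G) (h1 : ∀ x ∈ R, g * x * g⁻¹ ∈ R)
    (h2 : ∀ x ∈ R, g⁻¹ * x * g ∈ R) : g ∈ Subgroup.normalizer (R : Set G) := by
  rw [Subgroup.mem_normalizer_iff]
  intro x
  refine ⟨h1 x, fun h => ?_⟩
  have := h2 _ h
  have e : g⁻¹ * (g * x * g⁻¹) * g = x := by group
  rw [e] at this
  exact this

theorem r3_conj_mem_of_mem_normalizer {R : Subgroup G} {g : G}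
    (hg : g ∈ Subgroup.normalizer (R : Set G)) {x : G} (hx : x ∈ R) :
    g * x * g⁻¹ ∈ R ∧ g⁻¹ * x * g ∈ R := by
  refine ⟨(Subgroup.mem_normalizer_iff.mp hg x).mp hx, ?_⟩
  have h := (Subgroup.mem_normalizer_iff.mp hg (g⁻¹ * x * g)).mpr
  apply h
  have e : g * (g⁻¹ * x * g) * g⁻¹ = x := by group
  rw [e]; exact hx

end r3ambient

end Cfsg.Agent.Lib.Helper21
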