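import Mathlib
import Cfsg.Agent.Lib.Helper21.Rank3b

set_option autoImplicit false

namespace Cfsg.Agent.Lib.Helper21

section r3c

variable {G : Type*} [Group G]

/-- coprime action: if the order-3 element `t` centralizes `x⁻¹ x^t` for `x` in a 2-group
normalized by `t`, then `t` centralizes `x`. -/
theorem r3_coprime_fix (Q : Subgroup G) (hQ2 : IsPGroup 2 Q) (t : G)
    (htQ : t ∈ Subgroup.normalizer (Q : Set G)) (ht3 : t ^ 3 = 1) {x : G} (hx : x ∈ Q)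
    (h : t * (x⁻¹ * (t * x * t⁻¹)) = (x⁻¹ * (t * x * t⁻¹)) * t) : t * x = x * t := by
  obtain ⟨c, hc⟩ : ∃ c : G, c = x⁻¹ * (t * x * t⁻¹) := ⟨_, rfl⟩
  rw [← hc] at h
  have hcQ : c ∈ Q := by
    rw [hc]; exact Q.mul_mem (Q.inv_mem hx) (r3_conj_mem_of_mem_normalizer htQ hx).1
  have h1 : t * x * t⁻¹ = x * c := by rw [hc]; group
  have h2 : t * c * t⁻¹ = c := by rw [h]; group
  have ht3' : t * t * t = 1 := by rw [← ht3, pow_succ, pow_succ, pow_one]
  have h3 : t * (t * (t * x * t⁻¹) * t⁻¹) * t⁻¹ = x * (c * c * c) := by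
    calc t * (t * (t * x * t⁻¹) * t⁻¹) * t⁻¹ = t * (t * (x * c) * t⁻¹) * t⁻¹ := by rw [h1]
      _ = t * ((t * x * t⁻¹) * (t * c * t⁻¹)) * t⁻¹ := by group
      _ = t * ((x * c) * c) * t⁻¹ := by rw [h1, h2]
      _ = (t * x * t⁻¹) * (t * c * t⁻¹) * (t * c * t⁻¹) := by group
      _ = x * c * c * c := by rw [h1, h2]
      _ = x * (c * c * c) := by simp only [mul_assoc]
  have h4 : t * (t * (t * x * t⁻¹) * t⁻¹) * t⁻¹ = x := by
    have e : t * (t * (t * x * t⁻¹) * t⁻¹) * t⁻¹ = (t * t * t) * x * (t * t * t)⁻¹ := by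
      simp only [mul_assoc, mul_inv_rev]
    rw [e, ht3']; simp
  have hc3 : c ^ 3 = 1 := by
    have h5 : x * (c * c * c) = x := h3.symm.trans h4
    have h6 : c * c * c = 1 := by simpa using h5
    rw [pow_succ, pow_succ, pow_one]; exact h6
  obtain ⟨k, hk⟩ := hQ2 ⟨c, hcQ⟩
  have hk' : c ^ (2 ^ k) = 1 := by
    have := congrArg Subtype.val hk
    simpa using this
  have hd1 : orderOf c ∣ 3 := orderOf_dvd_of_pow_eq_one hc3
  have hd2 : orderOf c ∣ 2 ^ k := orderOf_dvd_of_pow_eq_one hk'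
  have hcop : Nat.Coprime 3 (2 ^ k) := Nat.Coprime.pow_right k (by norm_num)
  have h1' : orderOf c = 1 := Nat.eq_one_of_dvd_coprimes hcop hd1 hd2
  have hc1 : c = 1 := orderOf_eq_one_iff.mp h1'
  rw [hc1, mul_one] at h1
  exact mul_inv_eq_iff_eq_mul.mp h1

/-- a minimal `d`,`t`-invariant subgroup not centralized by `t` -/
theorem r3_exists_min [Finite G] (Q : Subgroup G) (d t : G)
    (hdQ : d ∈ Subgroup.normalizer (Q : Set G)) (htQ : t ∈ Subgroup.normalizer (Q : Set G))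
    (hnc : ¬ ∀ x ∈ Q, t * x = x * t) :
    ∃ Q₂ : Subgroup G, Q₂ ≤ Q ∧ d ∈ Subgroup.normalizer (Q₂ : Set G) ∧
      t ∈ Subgroup.normalizer (Q₂ : Set G) ∧ (¬ ∀ x ∈ Q₂, t * x = x * t) ∧
      (∀ R : Subgroup G, R ≤ Q₂ → R ≠ Q₂ → d ∈ Subgroup.normalizer (R : Set G) →
        t ∈ Subgroup.normalizer (R : Set G) → ∀ x ∈ R, t * x = x * t) := by
  classical
  obtain ⟨n, hn⟩ : ∃ n, Nat.card Q = n := ⟨_, rfl⟩
  induction n using Nat.strong_induction_on generalizing Q with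
  | _ n ih =>
    by_cases hmin : ∀ R : Subgroup G, R ≤ Q → R ≠ Q → d ∈ Subgroup.normalizer (R : Set G) →
        t ∈ Subgroup.normalizer (R : Set G) → ∀ x ∈ R, t * x = x * t
    · exact ⟨Q, le_rfl, hdQ, htQ, hnc, hmin⟩
    · push Not at hmin
      obtain ⟨R, hRQ, hRne, hdR, htR, x, hxR, hx⟩ := hmin
      have hlt : Nat.card R < n := by
        rw [← hn]
        exact lt_of_le_of_ne (Subgroup.card_le_of_le hRQ)
          (fun h => hRne (Subgroup.eq_of_le_of_card_ge hRQ h.ge))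
      obtain ⟨Q₂, h1, h2, h3, h4, h5⟩ := ih _ hlt R hdR htR (fun h => hx (h x hxR)) rfl
      exact ⟨Q₂, h1.trans hRQ, h2, h3, h4, h5⟩

/-- structure of a minimal invariant subgroup: a central elementary abelian subgroup `Φ`
containing all squares and centralized by `t`. -/
theorem r3_min_struct [Finite G] (Q : Subgroup G) (hQ2 : IsPGroup 2 Q) (d t : G)
    (hdQ : d ∈ Subgroup.normalizer (Q : Set G)) (htQ : t ∈ Subgroup.normalizer (Q : Set G))
    (ht3 : t ^ 3 = 1) (hnc : ¬ ∀ x ∈ Q, t * x = x * t)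
    (hmin : ∀ R : Subgroup G, R ≤ Q → R ≠ Q → d ∈ Subgroup.normalizer (R : Set G) →
      t ∈ Subgroup.normalizer (R : Set G) → ∀ x ∈ R, t * x = x * t) :
    ∃ Φ : Subgroup G, Φ ≤ Q ∧ (∀ x ∈ Q, x ^ 2 ∈ Φ) ∧ (∀ z ∈ Φ, ∀ x ∈ Q, x * z = z * x) ∧
      (∀ z ∈ Φ, z ^ 2 = 1) ∧ (∀ z ∈ Φ, t * z = z * t) := by
  classical
  obtain ⟨Φ, hΦ⟩ : ∃ Φ : Subgroup G, Φ = Subgroup.closure {a | ∃ x ∈ Q, a = x ^ 2} := ⟨_, rfl⟩
  have hΦQ : Φ ≤ Q := by
    rw [hΦ, Subgroup.closure_le]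
    rintro _ ⟨x, hx, rfl⟩
    exact Q.pow_mem hx 2
  have hsqΦ : ∀ x ∈ Q, x ^ 2 ∈ Φ := by
    intro x hx; rw [hΦ]; exact Subgroup.subset_closure ⟨x, hx, rfl⟩
  have hconjΦ : ∀ g : G, g ∈ Subgroup.normalizer (Q : Set G) → ∀ z ∈ Φ, g * z * g⁻¹ ∈ Φ := by
    intro g hg z hz
    rw [hΦ] at hz ⊢
    induction hz using Subgroup.closure_induction with
    | mem y hy =>
      obtain ⟨x, hx, rfl⟩ := hy
      apply Subgroup.subset_closure
      exact ⟨g * x * g⁻¹, (r3_conj_mem_of_mem_normalizer hg hx).1, by rw [conj_pow]⟩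
    | one => simp
    | mul a b _ _ iha ihb =>
      have e : g * (a * b) * g⁻¹ = (g * a * g⁻¹) * (g * b * g⁻¹) := by group
      rw [e]; exact Subgroup.mul_mem _ iha ihb
    | inv a _ iha =>
      have e : g * a⁻¹ * g⁻¹ = (g * a * g⁻¹)⁻¹ := by group
      rw [e]; exact Subgroup.inv_mem _ iha
  have hnormΦ : ∀ g : G, g ∈ Subgroup.normalizer (Q : Set G) →
      g ∈ Subgroup.normalizer (Φ : Set G) := by
    intro g hg
    refine r3_mem_normalizer_of_conj Φ g (hconjΦ g hg) ?_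
    intro z hz
    have := hconjΦ g⁻¹ (Subgroup.inv_mem _ hg) z hz
    rwa [inv_inv] at this
  have hQne : Q ≠ ⊥ := by
    intro hQ
    apply hnc
    intro x hx
    rw [hQ] at hx
    rw [Subgroup.mem_bot.mp hx, mul_one, one_mul]
  have hΦne : Φ ≠ Q := by
    intro hΦQeq
    obtain ⟨n, hn⟩ := IsPGroup.iff_card.mp hQ2
    have hn0 : n ≠ 0 := by
      rintro rfl
      rw [pow_zero] at hn
      exact hQne (Subgroup.card_eq_one.mp hn)
    obtain ⟨M, hM⟩ := Sylow.exists_subgroup_card_pow_prime 2 (n := n - 1) (G := ↥Q)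
      (by rw [hn]; exact pow_dvd_pow 2 (Nat.sub_le n 1))
    have hidx : M.index = 2 := by
      have h1 := Subgroup.card_mul_index M
      rw [hM, hn] at h1
      have h2 : 2 ^ n = 2 ^ (n - 1) * 2 := by
        rw [← pow_succ]; congr 1; omega
      rw [h2] at h1
      exact Nat.eq_of_mul_eq_mul_left (by positivity) h1
    have hle : Φ ≤ M.map Q.subtype := by
      rw [hΦ, Subgroup.closure_le]
      rintro _ ⟨x, hx, rfl⟩
      exact ⟨⟨x, hx⟩ ^ 2, Subgroup.sq_mem_of_index_two hidx _, rfl⟩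
    have hcard := Subgroup.card_le_of_le hle
    rw [hΦQeq, Subgroup.card_map_of_injective (Subgroup.subtype_injective Q), hM, hn] at hcard
    have : 2 ^ (n - 1) < 2 ^ n := Nat.pow_lt_pow_right (by norm_num) (by omega)
    omega
  have hdΦ := hnormΦ d hdQ
  have htΦn := hnormΦ t htQ
  have htΦ : ∀ z ∈ Φ, t * z = z * t := hmin Φ hΦQ hΦne hdΦ htΦn
  have hcx : ∀ x ∈ Q, x⁻¹ * (t * x * t⁻¹) ∈ Q := fun x hx =>
    Q.mul_mem (Q.inv_mem hx) (r3_conj_mem_of_mem_normalizer htQ hx).1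
  have hfull : ∀ R : Subgroup G, R ≤ Q → d ∈ Subgroup.normalizer (R : Set G) →
      t ∈ Subgroup.normalizer (R : Set G) → (∀ x ∈ Q, x⁻¹ * (t * x * t⁻¹) ∈ R) → R = Q := by
    intro R hRQ hdR htR hR
    by_contra hne
    apply hnc
    intro x hx
    exact r3_coprime_fix Q hQ2 t htQ ht3 hx (hmin R hRQ hne hdR htR _ (hR x hx))
  have hΦcent : ∀ z ∈ Φ, ∀ x ∈ Q, x * z = z * x := by
    obtain ⟨D, hD⟩ : ∃ D : Subgroup G, D = Q ⊓ Subgroup.centralizer (Φ : Set G) := ⟨_, rfl⟩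
    have hDQ : D ≤ Q := by rw [hD]; exact inf_le_left
    have hDnorm : ∀ g : G, g ∈ Subgroup.normalizer (Q : Set G) →
        ∀ x ∈ D, g * x * g⁻¹ ∈ D := by
      intro g hg x hx
      rw [hD, Subgroup.mem_inf] at hx ⊢
      refine ⟨(r3_conj_mem_of_mem_normalizer hg hx.1).1, ?_⟩
      rw [Subgroup.mem_centralizer_iff]
      intro φ hφ
      have hφ' : g⁻¹ * φ * g ∈ Φ := (r3_conj_mem_of_mem_normalizer (hnormΦ g hg) hφ).2
      have h1 := Subgroup.mem_centralizer_iff.mp hx.2 _ hφ'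
      calc φ * (g * x * g⁻¹) = g * (g⁻¹ * φ * g * x) * g⁻¹ := by group
        _ = g * (x * (g⁻¹ * φ * g)) * g⁻¹ := by rw [h1]
        _ = g * x * g⁻¹ * φ := by group
    have hDn : ∀ g : G, g ∈ Subgroup.normalizer (Q : Set G) →
        g ∈ Subgroup.normalizer (D : Set G) := by
      intro g hg
      refine r3_mem_normalizer_of_conj D g (hDnorm g hg) ?_
      intro x hx
      have := hDnorm g⁻¹ (Subgroup.inv_mem _ hg) x hx
      rwa [inv_inv] at this
    have hDeq : D = Q := by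
      refine hfull D hDQ (hDn d hdQ) (hDn t htQ) ?_
      intro x hx
      rw [hD, Subgroup.mem_inf]
      refine ⟨hcx x hx, ?_⟩
      rw [Subgroup.mem_centralizer_iff]
      intro φ hφ
      have hxφ : x * φ * x⁻¹ ∈ Φ :=
        (r3_conj_mem_of_mem_normalizer (hnormΦ x (Subgroup.le_normalizer hx)) hφ).1
      have e1 := htΦ _ hxφ
      have e2 := htΦ φ hφ
      have h1 : t⁻¹ * φ * t = φ := by rw [mul_assoc, ← e2, inv_mul_cancel_left]
      have h2 : t * (x * φ * x⁻¹) * t⁻¹ = x * φ * x⁻¹ := by rw [e1, mul_inv_cancel_right]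
      have h3 : (x⁻¹ * (t * x * t⁻¹)) * φ * (x⁻¹ * (t * x * t⁻¹))⁻¹ = φ := by
        calc (x⁻¹ * (t * x * t⁻¹)) * φ * (x⁻¹ * (t * x * t⁻¹))⁻¹
            = x⁻¹ * (t * (x * (t⁻¹ * φ * t) * x⁻¹) * t⁻¹) * x := by group
          _ = x⁻¹ * (t * (x * φ * x⁻¹) * t⁻¹) * x := by rw [h1]
          _ = x⁻¹ * (x * φ * x⁻¹) * x := by rw [h2]
          _ = φ := by group
      exact (mul_inv_eq_iff_eq_mul.mp h3).symm
    intro z hz x hx
    have hxD : x ∈ D := by rw [hDeq]; exact hx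
    rw [hD, Subgroup.mem_inf] at hxD
    exact (Subgroup.mem_centralizer_iff.mp hxD.2 z hz).symm
  have hS : ∀ a ∈ Q, ∀ b ∈ Q, ∃ κ ∈ Φ, (a * b) ^ 2 = a ^ 2 * κ * b ^ 2 ∧ κ ^ 2 = 1 := by
    intro a ha b hb
    obtain ⟨κ, hκ⟩ : ∃ κ : G, κ = a⁻¹ * b * a * b⁻¹ := ⟨_, rfl⟩
    have hκΦ : κ ∈ Φ := by
      have e : κ = (a⁻¹) ^ 2 * (a * b) ^ 2 * (b⁻¹) ^ 2 := by
        rw [hκ, pow_two, pow_two, pow_two]; group
      rw [e]
      exact Φ.mul_mem (Φ.mul_mem (hsqΦ _ (Q.inv_mem ha)) (hsqΦ _ (Q.mul_mem ha hb)))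
        (hsqΦ _ (Q.inv_mem hb))
    refine ⟨κ, hκΦ, by rw [hκ, pow_two, pow_two, pow_two]; group, ?_⟩
    have hκb : b⁻¹ * κ = κ * b⁻¹ := hΦcent κ hκΦ b⁻¹ (Q.inv_mem hb)
    have hb2 : a * b ^ 2 = b ^ 2 * a := hΦcent (b ^ 2) (hsqΦ b hb) a ha
    calc κ ^ 2 = κ * κ := pow_two κ
      _ = a⁻¹ * b * a * (b⁻¹ * κ) := by nth_rewrite 1 [hκ]; group
      _ = a⁻¹ * b * a * (κ * b⁻¹) := by rw [hκb]
      _ = a⁻¹ * (b ^ 2 * a) * (b ^ 2)⁻¹ := by rw [hκ, pow_two]; group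
      _ = a⁻¹ * (a * b ^ 2) * (b ^ 2)⁻¹ := by rw [hb2]
      _ = 1 := by group
  have hx4 : ∀ x ∈ Q, x ^ 4 = 1 := by
    obtain ⟨K, hK⟩ : ∃ K : Subgroup G, ∀ g, g ∈ K ↔ g ∈ Q ∧ g ^ 4 = 1 := by
      refine ⟨{ carrier := {g | g ∈ Q ∧ g ^ 4 = 1}
                mul_mem' := ?_
                one_mem' := ⟨Q.one_mem, one_pow 4⟩
                inv_mem' := ?_ }, fun g => Iff.rfl⟩
      · rintro a b ⟨ha, ha4⟩ ⟨hb, hb4⟩
        refine ⟨Q.mul_mem ha hb, ?_⟩
        obtain ⟨κ, hκΦ, h1, h2⟩ := hS a ha b hb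
        have hc1 : Commute (a ^ 2) κ := hΦcent κ hκΦ (a ^ 2) (Q.pow_mem ha 2)
        have hc2 : Commute (a ^ 2 * κ) (b ^ 2) :=
          hΦcent (b ^ 2) (hsqΦ b hb) (a ^ 2 * κ) (Q.mul_mem (Q.pow_mem ha 2) (hΦQ hκΦ))
        have ha4' : (a ^ 2) ^ 2 = 1 := by rw [← pow_mul]; exact ha4
        have hb4' : (b ^ 2) ^ 2 = 1 := by rw [← pow_mul]; exact hb4
        calc (a * b) ^ 4 = ((a * b) ^ 2) ^ 2 := by rw [← pow_mul]
          _ = (a ^ 2 * κ * b ^ 2) ^ 2 := by rw [h1]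
          _ = (a ^ 2 * κ) ^ 2 * (b ^ 2) ^ 2 := hc2.mul_pow 2
          _ = (a ^ 2) ^ 2 * κ ^ 2 * (b ^ 2) ^ 2 := by rw [hc1.mul_pow 2]
          _ = 1 := by rw [ha4', hb4', h2]; simp
      · rintro a ⟨ha, ha4⟩
        exact ⟨Q.inv_mem ha, by rw [inv_pow, ha4, inv_one]⟩
    have hKQ : K ≤ Q := fun g hg => ((hK g).mp hg).1
    have hKnorm : ∀ g : G, g ∈ Subgroup.normalizer (Q : Set G) →
        g ∈ Subgroup.normalizer (K : Set G) := by
      have key : ∀ g : G, g ∈ Subgroup.normalizer (Q : Set G) → ∀ x ∈ K, g * x * g⁻¹ ∈ K := by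
        intro g hg x hx
        rw [hK] at hx ⊢
        exact ⟨(r3_conj_mem_of_mem_normalizer hg hx.1).1, by rw [conj_pow, hx.2]; group⟩
      intro g hg
      refine r3_mem_normalizer_of_conj K g (key g hg) ?_
      intro x hx
      have := key g⁻¹ (Subgroup.inv_mem _ hg) x hx
      rwa [inv_inv] at this
    have hKeq : K = Q := by
      refine hfull K hKQ (hKnorm d hdQ) (hKnorm t htQ) ?_
      intro x hx
      rw [hK]
      refine ⟨hcx x hx, ?_⟩
      obtain ⟨y, hy⟩ : ∃ y : G, y = t * x * t⁻¹ := ⟨_, rfl⟩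
      rw [← hy]
      have hyQ : y ∈ Q := by rw [hy]; exact (r3_conj_mem_of_mem_normalizer htQ hx).1
      obtain ⟨κ, hκΦ, h1, h2⟩ := hS x⁻¹ (Q.inv_mem hx) y hyQ
      have hy2 : y ^ 2 = x ^ 2 := by
        rw [hy, conj_pow]
        have := htΦ (x ^ 2) (hsqΦ x hx)
        rw [this, mul_inv_cancel_right]
      have hc : (x⁻¹) ^ 2 * κ = κ * (x⁻¹) ^ 2 := hΦcent κ hκΦ _ (Q.pow_mem (Q.inv_mem hx) 2)
      have h3 : (x⁻¹ * y) ^ 2 = κ := by
        rw [h1, hy2, hc]; group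
      calc (x⁻¹ * y) ^ 4 = ((x⁻¹ * y) ^ 2) ^ 2 := by rw [← pow_mul]
        _ = 1 := by rw [h3, h2]
    intro x hx
    have : x ∈ K := by rw [hKeq]; exact hx
    exact ((hK x).mp this).2
  have hΦexp' : ∀ z ∈ Subgroup.closure {a | ∃ x ∈ Q, a = x ^ 2}, z ^ 2 = 1 := by
    intro z hz
    induction hz using Subgroup.closure_induction with
    | mem y hy =>
      obtain ⟨x, hx, rfl⟩ := hy
      rw [← pow_mul]; exact hx4 x hx
    | one => exact one_pow 2
    | mul a b ha hb iha ihb =>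
      have haΦ : a ∈ Φ := by rw [hΦ]; exact ha
      have hbΦ : b ∈ Φ := by rw [hΦ]; exact hb
      have hc : Commute a b := (show Commute b a from hΦcent a haΦ b (hΦQ hbΦ)).symm
      rw [hc.mul_pow, iha, ihb, one_mul]
    | inv a _ iha => rw [inv_pow, iha, inv_one]
  exact ⟨Φ, hΦQ, hsqΦ, hΦcent, fun z hz => hΦexp' z (by rw [← hΦ]; exact hz), htΦ⟩

/-- a finite group acting freely by conjugation (through a homomorphism) on a finite set of
elements has order dividing the size of the set. -/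
theorem r3_card_dvd_of_free {K : Type*} [Group K] [Finite K] [Finite G] (φ : K →* G)
    (M : Set G) (hM : ∀ k : K, ∀ x ∈ M, φ k * x * (φ k)⁻¹ ∈ M)
    (hfree : ∀ k : K, ∀ x ∈ M, φ k * x = x * φ k → k = 1) : Nat.card K ∣ Nat.card ↥M := by
  classical
  letI : MulAction K ↥M :=
    { smul := fun k x => ⟨φ k * x * (φ k)⁻¹, hM k x x.2⟩
      one_smul := fun x => Subtype.ext (by
        show φ 1 * (x : G) * (φ 1)⁻¹ = x
        rw [map_one]; group)
      mul_smul := fun g h x => Subtype.ext (by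
        show φ (g * h) * (x : G) * (φ (g * h))⁻¹ = φ g * (φ h * (x : G) * (φ h)⁻¹) * (φ g)⁻¹
        rw [map_mul]; group) }
  have hstab : ∀ b : ↥M, MulAction.stabilizer K b = ⊥ := by
    intro b
    rw [eq_bot_iff]
    intro k hk
    rw [MulAction.mem_stabilizer_iff] at hk
    have h1 : φ k * (b : G) * (φ k)⁻¹ = b := congrArg Subtype.val hk
    rw [Subgroup.mem_bot]
    exact hfree k b b.2 (mul_inv_eq_iff_eq_mul.mp h1)
  have e := MulAction.selfEquivOrbitsQuotientProd hstab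
  rw [Nat.card_congr e, Nat.card_prod]
  exact dvd_mul_left _ _

/-- in a cyclic group of order `3 ^ n`, every nontrivial subgroup contains the element
`d ^ (3 ^ (n - 1))` of order 3 -/
theorem r3_order3_mem_zpowers {d : G} {n : ℕ} (hn : 1 ≤ n) (hd : orderOf d = 3 ^ n) {h : G}
    (hh : h ∈ Subgroup.zpowers d) (h1 : h ≠ 1) : d ^ (3 ^ (n - 1)) ∈ Subgroup.zpowers h := by
  have hdvd : orderOf h ∣ 3 ^ n := by
    rw [← hd]
    exact orderOf_dvd_of_mem_zpowers hh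
  obtain ⟨j, hj, hoj⟩ := (Nat.dvd_prime_pow Nat.prime_three).mp hdvd
  have hj1 : 1 ≤ j := by
    by_contra hlt
    have : j = 0 := by omega
    rw [this, pow_zero] at hoj
    exact h1 (orderOf_eq_one_iff.mp hoj)
  obtain ⟨h', hh'⟩ : ∃ h' : G, h' = h ^ (3 ^ (j - 1)) := ⟨_, rfl⟩
  have hh'3 : h' ^ 3 = 1 := by
    rw [hh', ← pow_mul, ← pow_succ, (by omega : j - 1 + 1 = j), ← hoj, pow_orderOf_eq_one]
  have hh'1 : h' ≠ 1 := by
    intro hcon
    rw [hh'] at hcon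
    have := orderOf_dvd_of_pow_eq_one hcon
    rw [hoj] at this
    have h2 := Nat.le_of_dvd (by positivity) this
    have h3 : 3 ^ (j - 1) < 3 ^ j := Nat.pow_lt_pow_right (by norm_num) (by omega)
    omega
  have hh'h : h' ∈ Subgroup.zpowers h := by
    rw [hh']; exact Subgroup.pow_mem _ (Subgroup.mem_zpowers h) _
  have hh'd : h' ∈ Subgroup.zpowers d := by rw [hh']; exact Subgroup.pow_mem _ hh _
  obtain ⟨k, hk⟩ := Subgroup.mem_zpowers_iff.mp hh'd
  have h3k : d ^ (k * 3) = 1 := by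
    rw [zpow_mul, hk]; exact_mod_cast hh'3
  have hdvd2 : ((3 ^ n : ℕ) : ℤ) ∣ k * 3 := by
    rw [← hd]; exact orderOf_dvd_iff_zpow_eq_one.mpr h3k
  have hdvd3 : ((3 ^ (n - 1) : ℕ) : ℤ) ∣ k := by
    have e : ((3 ^ n : ℕ) : ℤ) = ((3 ^ (n - 1) : ℕ) : ℤ) * 3 := by
      rw [← Nat.cast_ofNat (R := ℤ) (n := 3), ← Nat.cast_mul, ← pow_succ]
      congr 2; omega
    rw [e] at hdvd2
    exact Int.dvd_of_mul_dvd_mul_right (by norm_num) hdvd2
  obtain ⟨q, hq⟩ := hdvd3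
  obtain ⟨t, ht⟩ : ∃ t : G, t = d ^ (3 ^ (n - 1)) := ⟨_, rfl⟩
  have ht3 : t ^ 3 = 1 := by
    rw [ht, ← pow_mul, ← pow_succ, (by omega : n - 1 + 1 = n), ← hd, pow_orderOf_eq_one]
  have hh't : h' = t ^ q := by
    rw [← hk, hq, zpow_mul, zpow_natCast, ht]
  rw [← ht]
  have ht3' : t ^ (3 : ℤ) = 1 := by exact_mod_cast ht3
  have hq3 : t ^ q = t ^ (q % 3) := by
    have : q = 3 * (q / 3) + q % 3 := by omega
    conv_lhs => rw [this]
    rw [zpow_add, zpow_mul, ht3', one_zpow, one_mul]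
  have hcases : q % 3 = 0 ∨ q % 3 = 1 ∨ q % 3 = 2 := by omega
  rcases hcases with h0 | h0 | h0
  · rw [h0, zpow_zero] at hq3
    exact absurd (hh't.trans hq3) hh'1
  · rw [h0, zpow_one] at hq3
    rw [← hq3, ← hh't]; exact hh'h
  · rw [h0] at hq3
    have ht4 : t = (t ^ (2 : ℤ)) ^ 2 := by
      have e : (t ^ (2 : ℤ)) ^ 2 = t ^ 3 * t := by group
      rw [e, ht3, one_mul]
    rw [ht4, ← hq3, ← hh't]
    exact Subgroup.pow_mem _ hh'h 2

theorem r3_arith (a c : ℕ) (hca : c < a) (h9 : 9 ∣ 2 ^ a - 2 ^ c) : 64 * 2 ^ c ≤ 2 ^ a := by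
  obtain ⟨e, rfl⟩ : ∃ e, a = c + e := ⟨a - c, by omega⟩
  have h1 : 2 ^ (c + e) - 2 ^ c = 2 ^ c * (2 ^ e - 1) := by
    rw [pow_add, Nat.mul_sub_one]
  rw [h1] at h9
  have hcop : Nat.Coprime 9 (2 ^ c) := Nat.Coprime.pow_right c (by norm_num)
  have h2 : 9 ∣ 2 ^ e - 1 := hcop.dvd_of_dvd_mul_left h9
  have he6 : 6 ≤ e := by
    by_contra hlt
    push Not at hlt
    interval_cases e <;> omega
  calc 64 * 2 ^ c = 2 ^ c * 2 ^ 6 := by ring
    _ ≤ 2 ^ c * 2 ^ e := Nat.mul_le_mul_left _ (Nat.pow_le_pow_right (by norm_num) he6)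
    _ = 2 ^ (c + e) := (pow_add 2 c e).symm

/-- if the number of elements of the 2-group `Q` not centralized by `t` is divisible by 9, then
`C_Q(t)` has index at least 64 -/
theorem r3_index_ge [Finite G] (Q : Subgroup G) (hQ2 : IsPGroup 2 Q) (t : G)
    (hnc : ¬ ∀ x ∈ Q, t * x = x * t)
    (h9 : 9 ∣ Nat.card ↥((Q : Set G) \ (Subgroup.centralizer {t} : Set G))) :
    64 * Nat.card (Q ⊓ Subgroup.centralizer {t} : Subgroup G) ≤ Nat.card Q := by
  obtain ⟨C₀, hC₀⟩ : ∃ C₀ : Subgroup G, C₀ = Q ⊓ Subgroup.centralizer {t} := ⟨_, rfl⟩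
  rw [← hC₀]
  have hC₀Q : C₀ ≤ Q := by rw [hC₀]; exact inf_le_left
  have hset : (Q : Set G) \ (Subgroup.centralizer {t} : Set G) = (Q : Set G) \ (C₀ : Set G) := by
    ext x
    simp only [Set.mem_sdiff, SetLike.mem_coe, hC₀, Subgroup.mem_inf]
    tauto
  have hQc : (Q : Set G).ncard = Nat.card Q := (Nat.card_coe_set_eq (Q : Set G)).symm
  have hCc : (C₀ : Set G).ncard = Nat.card C₀ := (Nat.card_coe_set_eq (C₀ : Set G)).symm
  rw [hset, Nat.card_coe_set_eq,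
    Set.ncard_sdiff (show (C₀ : Set G) ⊆ (Q : Set G) from hC₀Q), hQc, hCc] at h9
  obtain ⟨a, ha⟩ := IsPGroup.iff_card.mp hQ2
  obtain ⟨c, hc⟩ := IsPGroup.iff_card.mp (hQ2.to_le hC₀Q)
  have hlt : Nat.card C₀ < Nat.card Q := by
    refine lt_of_le_of_ne (Subgroup.card_le_of_le hC₀Q) (fun h => hnc ?_)
    have := Subgroup.eq_of_le_of_card_ge hC₀Q h.ge
    intro x hx
    have hx' : x ∈ C₀ := by rw [this]; exact hx
    rw [hC₀, Subgroup.mem_inf] at hx'
    exact mem_centralizer_singleton.mp hx'.2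
  rw [ha, hc] at hlt h9 ⊢
  have hca : c < a := (Nat.pow_lt_pow_iff_right (by norm_num)).mp hlt
  exact r3_arith a c hca h9

/-- core: an element `d` of order `3 ^ n`, `n ≥ 2`, normalizing a 2-group without elementary
abelian subgroups of order 8, has `d ^ (3 ^ (n - 1))` centralizing the 2-group. -/
theorem r3_core [Finite G] (P : Subgroup G) (hP : IsPGroup 2 P)
    (hrank : ∀ E : Subgroup G, E ≤ P → IsMulCommutative E → (∀ a ∈ E, a ^ 2 = 1) →
      Nat.card E ≤ 4)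
    (d : G) (n : ℕ) (hn : 2 ≤ n) (hd : orderOf d = 3 ^ n)
    (hdP : d ∈ Subgroup.normalizer (P : Set G)) :
    ∀ x ∈ P, d ^ (3 ^ (n - 1)) * x = x * d ^ (3 ^ (n - 1)) := by
  by_contra hnc
  obtain ⟨t, ht⟩ : ∃ t : G, t = d ^ (3 ^ (n - 1)) := ⟨_, rfl⟩
  rw [← ht] at hnc
  have ht3 : t ^ 3 = 1 := by
    rw [ht, ← pow_mul, ← pow_succ, (by omega : n - 1 + 1 = n), ← hd, pow_orderOf_eq_one]
  have htP : t ∈ Subgroup.normalizer (P : Set G) := by rw [ht]; exact Subgroup.pow_mem _ hdP _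
  obtain ⟨Q, hQP, hdQ, htQ, hncQ, hmin⟩ := r3_exists_min P d t hdP htP hnc
  have hQ2 : IsPGroup 2 Q := hP.to_le hQP
  obtain ⟨Φ, hΦQ, hsq, hΦc, hΦ2, htΦ⟩ := r3_min_struct Q hQ2 d t hdQ htQ ht3 hncQ hmin
  have hΦ4 : Nat.card Φ ≤ 4 :=
    hrank Φ (hΦQ.trans hQP) ⟨⟨fun a b => Subtype.ext (hΦc b b.2 a (hΦQ a.2))⟩⟩ hΦ2
  have hcommd : ∀ h ∈ Subgroup.zpowers d, Commute h t := by
    intro h hh
    obtain ⟨k, rfl⟩ := Subgroup.mem_zpowers_iff.mp hh
    rw [ht]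
    exact Commute.zpow_left (Commute.pow_right (Commute.refl d) _) k
  have h9 : 9 ∣ Nat.card ↥((Q : Set G) \ (Subgroup.centralizer {t} : Set G)) := by
    have hdvd := r3_card_dvd_of_free (Subgroup.zpowers d).subtype
      ((Q : Set G) \ (Subgroup.centralizer {t} : Set G)) ?_ ?_
    · rw [Nat.card_zpowers, hd] at hdvd
      exact (pow_dvd_pow 3 hn).trans hdvd
    · intro h x hx
      change (h : G) * x * (h : G)⁻¹ ∈ _
      have hhN : (h : G) ∈ Subgroup.normalizer (Q : Set G) := (Subgroup.zpowers_le.mpr hdQ) h.2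
      refine ⟨(r3_conj_mem_of_mem_normalizer hhN hx.1).1, ?_⟩
      intro hc
      apply hx.2
      rw [SetLike.mem_coe, mem_centralizer_singleton] at hc ⊢
      have e1 : (h : G)⁻¹ * t = t * (h : G)⁻¹ := (Commute.inv_left (hcommd h h.2)).eq
      calc t * x = (h : G)⁻¹ * (t * ((h : G) * x * (h : G)⁻¹)) * h := by
            rw [← mul_assoc (h : G)⁻¹ t, e1]; group
        _ = (h : G)⁻¹ * (((h : G) * x * (h : G)⁻¹) * t) * h := by rw [hc]
        _ = x * ((h : G)⁻¹ * t) * h := by group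
        _ = x * (t * (h : G)⁻¹) * h := by rw [e1]
        _ = x * t := by group
    · intro h x hx hcomm
      change (h : G) * x = x * (h : G) at hcomm
      by_contra h1
      have h1' : (h : G) ≠ 1 := fun hh => h1 (Subtype.ext hh)
      have hmem := r3_order3_mem_zpowers (by omega) hd h.2 h1'
      rw [← ht] at hmem
      apply hx.2
      rw [SetLike.mem_coe, mem_centralizer_singleton]
      have hle : Subgroup.zpowers (h : G) ≤ Subgroup.centralizer {x} := by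
        rw [Subgroup.zpowers_le, mem_centralizer_singleton]; exact hcomm.symm
      exact (mem_centralizer_singleton.mp (hle hmem)).symm
  have hidx := r3_index_ge Q hQ2 t hncQ h9
  have hΦC : Φ ≤ Q ⊓ Subgroup.centralizer {t} :=
    le_inf hΦQ (fun z hz => mem_centralizer_singleton.mpr (htΦ z hz))
  have hcard : 64 * Nat.card Φ ≤ Nat.card Q :=
    le_trans (Nat.mul_le_mul_left _ (Subgroup.card_le_of_le hΦC)) hidx
  obtain ⟨E, hEQ, hEc, hE2, hE8⟩ := r3_exists_elemAb8' Q Φ hΦQ hsq hΦc hΦ2 hΦ4 hcard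
  have := hrank E (hEQ.trans hQP) hEc hE2
  omega

/-- fixed points of a `p`-element normalizing a subgroup, modulo `p` -/
theorem r3_card_modEq_fixed [Finite G] (U : Subgroup G) (h : G) (p k : ℕ) [Fact p.Prime]
    (hU : h ∈ Subgroup.normalizer (U : Set G)) (hh : h ^ (p ^ k) = 1) :
    Nat.card U ≡ Nat.card (U ⊓ Subgroup.centralizer {h} : Subgroup G) [MOD p] := by
  classical
  haveI : Fintype ↥U := Fintype.ofFinite _
  obtain ⟨f, hf⟩ : ∃ f : Function.End ↥U, ∀ u : ↥U, ((f u : ↥U) : G) = h * u * h⁻¹ :=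
    ⟨fun u => ⟨h * u * h⁻¹, (r3_conj_mem_of_mem_normalizer hU u.2).1⟩, fun u => rfl⟩
  have hpow : ∀ m : ℕ, ∀ u : ↥U, (((f ^ m) u : ↥U) : G) = h ^ m * u * (h ^ m)⁻¹ := by
    intro m
    induction m with
    | zero =>
      intro u
      simp only [pow_zero]
      show (u : G) = 1 * (u : G) * (1 : G)⁻¹
      group
    | succ m ih =>
      intro u
      rw [pow_succ]
      show (((f ^ m) (f u) : ↥U) : G) = _
      rw [ih, hf, pow_succ]; group
  have hf1 : f ^ p ^ k = 1 := by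
    funext u
    apply Subtype.ext
    rw [hpow, hh]
    show (1 : G) * (u : G) * (1 : G)⁻¹ = (u : G)
    group
  have hmod := Equiv.Perm.card_fixedPoints_modEq (f := f) hf1
  have e : ↥(Function.fixedPoints (f : ↥U → ↥U)) ≃
      ↥(U ⊓ Subgroup.centralizer {h} : Subgroup G) :=
    { toFun := fun u => ⟨(u.1 : G), Subgroup.mem_inf.mpr ⟨u.1.2, by
        rw [mem_centralizer_singleton]
        have h1 : ((f u.1 : ↥U) : G) = u.1 := congrArg Subtype.val (u.2 : f u.1 = u.1)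
        rw [hf] at h1
        exact mul_inv_eq_iff_eq_mul.mp h1⟩⟩
      invFun := fun v => ⟨⟨(v : G), (Subgroup.mem_inf.mp v.2).1⟩, by
        show f ⟨(v : G), (Subgroup.mem_inf.mp v.2).1⟩ = ⟨(v : G), (Subgroup.mem_inf.mp v.2).1⟩
        apply Subtype.ext
        rw [hf]
        have h1 := mem_centralizer_singleton.mp (Subgroup.mem_inf.mp v.2).2
        exact mul_inv_eq_iff_eq_mul.mpr h1⟩
      left_inv := fun u => rfl
      right_inv := fun v => rfl }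
  rw [← Nat.card_congr e, Nat.card_eq_fintype_card, Nat.card_eq_fintype_card]
  convert hmod

end r3c

end Cfsg.Agent.Lib.Helper21
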