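import Mathlib
import Cfsg.Agent.Lib.Helper3.SpSqDL
import Cfsg.Agent.Lib.Helper21.SylElem1
import Cfsg.Agent.Lib.Helper21.SylElem2

/-!
Squares in Sylow `2`-subgroups of a group `X` containing a copy of `D ≀ Sym(n)` with full
`2`-part: generic glue lemma.
-/

set_option autoImplicit false

namespace Cfsg.Agent.Lib.Helper21

open scoped commutatorElement
open scoped Pointwise
open Cfsg.Agent.Lib.Helper3

/-- If `X` contains a copy `ι(D^n) ⋊ π(Sym(n))` of the permutational wreath product, `S` is a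
`2`-subgroup of `D` whose squares lie in its commutator subgroup and the `2`-part of `|X|` is
`|S|^n * (n!)_2`, then squares in a Sylow `2`-subgroup of `X` lie in its commutator subgroup. -/
theorem perm_wreath_sq {D : Type*} {X : Type*} [Group D] [Group X] [Finite X] (n : ℕ)
    (ι : (Fin n → D) →* X) (π : Equiv.Perm (Fin n) →* X)
    (hstar : ∀ (σ : Equiv.Perm (Fin n)) (g : Fin n → D),
      π σ * ι g = ι (fun i => g (σ⁻¹ i)) * π σ)
    (hinj : Function.Injective (fun p : (Fin n → D) × Equiv.Perm (Fin n) => ι p.1 * π p.2))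
    (S : Subgroup D) [Finite S] (hS : IsPGroup 2 S) (hsq : ∀ u : S, u ^ 2 ∈ commutator S)
    (hcard : (Nat.card X).factorization 2
      = n * (Nat.card S).factorization 2 + (n.factorial).factorization 2)
    (P : Sylow 2 X) : ∀ x : (P : Subgroup X), x ^ 2 ∈ commutator (P : Subgroup X) := by
  classical
  let S₀ : MonSys (Fin n) D X := ⟨ι, π, hstar, hinj⟩
  obtain ⟨T0⟩ : Nonempty (Sylow 2 (Equiv.Perm (Fin n))) := inferInstance
  have hQ := (sq_level S).mp hsq
  have hT : ∀ σ ∈ (T0 : Subgroup (Equiv.Perm (Fin n))),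
      σ ^ 2 ∈ ⁅(T0 : Subgroup (Equiv.Perm (Fin n))), (T0 : Subgroup (Equiv.Perm (Fin n)))⁆ :=
    se_T 2 n (Fin n) (by simp) _ T0.isPGroup'
      (by intro R hR hPR _; exact (T0.is_maximal' hR hPR).le)
  have hEB := S₀.sub_sq_mem S (T0 : Subgroup (Equiv.Perm (Fin n))) hQ hT
  have hcB : Nat.card (S₀.sub S (T0 : Subgroup (Equiv.Perm (Fin n)))) =
      Nat.card S ^ n * Nat.card (T0 : Subgroup (Equiv.Perm (Fin n))) := by
    rw [MonSys.card_sub, Nat.card_fin]
  have hcT : Nat.card (T0 : Subgroup (Equiv.Perm (Fin n))) =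
      2 ^ (Nat.card (Equiv.Perm (Fin n))).factorization 2 := T0.card_eq_multiplicity
  obtain ⟨e, he⟩ := IsPGroup.iff_card.mp hS
  have hfacS : (Nat.card S).factorization 2 = e := by
    rw [he, Nat.Prime.factorization_pow Nat.prime_two]
    simp
  have hcB' : Nat.card (S₀.sub S (T0 : Subgroup (Equiv.Perm (Fin n)))) =
      2 ^ (Nat.card X).factorization 2 := by
    rw [hcB, hcT, hcard, hfacS, he, Nat.card_perm, Nat.card_fin, ← pow_mul, ← pow_add]
    congr 1
    ring
  have hBp : IsPGroup 2 (S₀.sub S (T0 : Subgroup (Equiv.Perm (Fin n)))) :=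
    IsPGroup.of_card hcB'
  obtain ⟨S', hS'⟩ := hBp.exists_le_sylow
  have hBS : S₀.sub S (T0 : Subgroup (Equiv.Perm (Fin n))) = (S' : Subgroup X) :=
    Subgroup.eq_of_le_of_card_ge hS' (by rw [S'.card_eq_multiplicity, hcB'])
  rw [hBS] at hEB
  obtain ⟨c, hc⟩ := MulAction.exists_smul_eq X S' P
  rw [sq_level]
  intro x hx
  rw [← hc, Sylow.coe_subgroup_smul] at hx ⊢
  have hmap : MulAut.conj c • (S' : Subgroup X) =
      (S' : Subgroup X).map (MulAut.conj c).toMonoidHom := rfl
  rw [hmap] at hx ⊢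
  obtain ⟨y, hy, rfl⟩ := hx
  rw [← Subgroup.map_commutator, ← map_pow]
  exact Subgroup.mem_map_of_mem _ (hEB y hy)

end Cfsg.Agent.Lib.Helper21
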